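import Mathlib
import Cfsg.Agent.Lib.Helper11.SimpleModel
import Cfsg.Agent.Lib.Helper11.OrderW

/-!
# Splitting the big boolean checks into pieces of bounded size
-/

set_option autoImplicit false

namespace Cfsg.Agent.Lib.Helper11

/-- a task: some equations between words, tested on some of the test vectors -/
noncomputable def eqChk (NT : ℕ → List (ℕ × ℕ)) (k : ℕ)
    (t : List (List ℕ × List ℕ) × List ℕ) : Bool :=
  t.1.all (fun e => t.2.all (fun j =>
    Nat.beq (applyWord NT e.1 (tvec j k)) (applyWord NT e.2 (tvec j k))))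

/-- all the pairs (equation, index of a test vector) of a list of tasks -/
def expandTasks (tasks : List (List (List ℕ × List ℕ) × List ℕ)) :
    List ((List ℕ × List ℕ) × ℕ) :=
  tasks.flatMap (fun t => t.1.flatMap (fun e => t.2.map (fun j => (e, j))))

/-- all the pairs (equation, index of a test vector) -/
def expandEqs (k : ℕ) (E : List (List ℕ × List ℕ)) : List ((List ℕ × List ℕ) × ℕ) :=
  E.flatMap (fun e => (List.range k).map (fun j => (e, j)))

theorem wordEq_of_forall (NT : ℕ → List (ℕ × ℕ)) (k : ℕ) (w1 w2 : List ℕ)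
    (h : ∀ j < k, applyWord NT w1 (tvec j k) = applyWord NT w2 (tvec j k)) :
    wordEq NT k w1 w2 = true := by
  have aux : ∀ k', k' ≤ k → (Nat.rec (motive := fun _ => Bool) true
      (fun j ih => Bool.rec false ih
        (Nat.beq (applyWord NT w1 (tvec j k)) (applyWord NT w2 (tvec j k)))) k' : Bool) = true := by
    intro k'
    induction k' with
    | zero => intro _; rfl
    | succ k' ih =>
      intro hk
      show (Bool.rec false (Nat.rec (motive := fun _ => Bool) true
        (fun j ih => Bool.rec false ih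
          (Nat.beq (applyWord NT w1 (tvec j k)) (applyWord NT w2 (tvec j k)))) k' : Bool)
        (Nat.beq (applyWord NT w1 (tvec k' k)) (applyWord NT w2 (tvec k' k))) : Bool) = true
      have h1 : Nat.beq (applyWord NT w1 (tvec k' k)) (applyWord NT w2 (tvec k' k)) = true := by
        rw [h k' (by omega)]
        exact Nat.beq_refl _
      rw [h1]
      exact ih (by omega)
  exact aux k (le_refl k)

theorem wordId_of_forall (NT : ℕ → List (ℕ × ℕ)) (k : ℕ) (w : List ℕ)
    (h : ∀ j < k, applyWord NT w (tvec j k) = tvec j k) : wordId NT k w = true := by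
  have aux : ∀ k', k' ≤ k → (Nat.rec (motive := fun _ => Bool) true
      (fun j ih => Bool.rec false ih (Nat.beq (applyWord NT w (tvec j k)) (tvec j k))) k' : Bool)
        = true := by
    intro k'
    induction k' with
    | zero => intro _; rfl
    | succ k' ih =>
      intro hk
      show (Bool.rec false (Nat.rec (motive := fun _ => Bool) true
        (fun j ih => Bool.rec false ih (Nat.beq (applyWord NT w (tvec j k)) (tvec j k))) k' : Bool)
        (Nat.beq (applyWord NT w (tvec k' k)) (tvec k' k)) : Bool) = true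
      have h1 : Nat.beq (applyWord NT w (tvec k' k)) (tvec k' k) = true := by
        rw [h k' (by omega)]
        exact Nat.beq_refl _
      rw [h1]
      exact ih (by omega)
  exact aux k (le_refl k)

theorem eqs_of_tasks (NT : ℕ → List (ℕ × ℕ)) (k : ℕ) (E : List (List ℕ × List ℕ))
    (tasks : List (List (List ℕ × List ℕ) × List ℕ))
    (h : ∀ i < tasks.length, eqChk NT k (tasks.getD i ([], [])) = true)
    (hflat : expandTasks tasks = expandEqs k E) : ∀ e ∈ E, wordEq NT k e.1 e.2 = true := by
  intro e he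
  apply wordEq_of_forall
  intro j hj
  have h1 : (e, j) ∈ expandEqs k E := by
    unfold expandEqs
    rw [List.mem_flatMap]
    exact ⟨e, he, List.mem_map.2 ⟨j, List.mem_range.2 hj, rfl⟩⟩
  rw [← hflat] at h1
  unfold expandTasks at h1
  rw [List.mem_flatMap] at h1
  obtain ⟨t, ht, h2⟩ := h1
  rw [List.mem_flatMap] at h2
  obtain ⟨e', he', h3⟩ := h2
  obtain ⟨j', hj', h4⟩ := List.mem_map.1 h3
  obtain ⟨rfl, rfl⟩ := Prod.mk.inj h4
  obtain ⟨i, hi, rfl⟩ := List.getElem_of_mem ht
  have h5 := h i hi
  rw [List.getD_eq_getElem _ _ hi] at h5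
  unfold eqChk at h5
  rw [List.all_eq_true] at h5
  have h6 := h5 _ he'
  rw [List.all_eq_true] at h6
  exact Nat.eq_of_beq_eq_true (h6 _ hj')

theorem all_wordId_of_eqs (NT : ℕ → List (ℕ × ℕ)) (k : ℕ) (L : List (List ℕ))
    (h : ∀ e ∈ L.map (fun w => (w, ([] : List ℕ))), wordEq NT k e.1 e.2 = true) :
    L.all (wordId NT k) = true := by
  rw [List.all_eq_true]
  intro w hw
  have h1 := h (w, []) (List.mem_map.2 ⟨w, hw, rfl⟩)
  apply wordId_of_forall
  intro j hj
  exact wordEq_aux NT k w [] k h1 j hj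

/-- the equations defining the macro letters -/
def macEqs : ℕ → List (List ℕ) → List (List ℕ × List ℕ)
  | _, [] => []
  | z, w :: rest => ([z], w) :: macEqs (z + 1) rest

/-- macro letters are defined by earlier letters -/
def macLt : ℕ → List (List ℕ) → Bool
  | _, [] => true
  | z, w :: rest => w.all (fun l => decide (l < z)) && macLt (z + 1) rest

theorem macChk_of_eqs (NT : ℕ → List (ℕ × ℕ)) (k : ℕ) : ∀ (macs : List (List ℕ)) (z : ℕ),
    (∀ e ∈ macEqs z macs, wordEq NT k e.1 e.2 = true) → macLt z macs = true →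
    macChk NT k z macs = true := by
  intro macs
  induction macs with
  | nil => intro z _ _; rfl
  | cons w rest ih =>
    intro z h1 h2
    simp only [macLt, Bool.and_eq_true] at h2
    simp only [macChk, Bool.and_eq_true]
    refine ⟨h1 ([z], w) (by simp [macEqs]), h2.1, ih (z + 1) ?_ h2.2⟩
    intro e he
    exact h1 e (by simp [macEqs, he])

theorem normChk_of_eqs (NT : ℕ → List (ℕ × ℕ)) (k : ℕ) (hm : List (List ℕ)) (t ti : List ℕ)
    (h : ∀ e ∈ hm.map (fun s => (s ++ t, t ++ s)), wordEq NT k e.1 e.2 = true) :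
    normChk NT k hm t ti = true := by
  unfold normChk
  rw [List.all_eq_true]
  intro s hs
  rw [Bool.or_eq_true]
  left
  exact h (s ++ t, t ++ s) (List.mem_map.2 ⟨s, hs, rfl⟩)

theorem chainChkW_cons (NT : ℕ → List (ℕ × ℕ)) (Lmax : ℕ)
    (x : List (List ℕ) × ℕ × ℕ × ℕ × ℕ) (rest : List (List (List ℕ) × ℕ × ℕ × ℕ × ℕ))
    (bs : List ℕ)
    (h1 : x.1.all (fun w => w.all (fun l => decide (l < Lmax))) = true)
    (h2 : growChk NT x.1 x.2.1 x.2.2.1 x.2.2.2.1 x.2.2.2.2 = true)
    (h3 : ∀ c ∈ bs, fixChk NT x.1 c 1 = true)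
    (h4 : chainChkW NT Lmax rest (x.2.2.1 :: bs) = true) :
    chainChkW NT Lmax (x :: rest) bs = true := by
  simp only [chainChkW, Bool.and_eq_true]
  exact ⟨h1, h2, List.all_eq_true.2 h3, h4⟩

theorem chainChkW_nil (NT : ℕ → List (ℕ × ℕ)) (Lmax : ℕ) (bs : List ℕ) :
    chainChkW NT Lmax [] bs = true := rfl

theorem fixChk_append (NT : ℕ → List (ℕ × ℕ)) (m1 m2 : List (List ℕ)) (a m : ℕ)
    (h1 : fixChk NT m1 a m = true) (h2 : fixChk NT m2 a m = true) :
    fixChk NT (m1 ++ m2) a m = true := by
  unfold fixChk at *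
  rw [List.all_append, h1, h2]
  rfl

theorem primChk_cons (NT : ℕ → List (ℕ × ℕ)) (INV : ℕ) (hm : List (List ℕ)) (n a : ℕ)
    (x : ℕ × ℕ × WExp × ℕ) (rest : List (ℕ × ℕ × WExp × ℕ))
    (h1 : growChk NT hm x.2.1 a a x.1 = true)
    (h2 : mapChk NT (x.2.2.1.letters INV) 0 a = true)
    (h3 : growChk NT (x.2.2.1.letters INV :: hm) x.2.2.2 0 0 n = true)
    (h4 : primChk NT INV hm n (a + x.1) rest = true) :
    primChk NT INV hm n a (x :: rest) = true := by
  simp only [primChk, Bool.and_eq_true]
  exact ⟨h1, h2, h3, h4⟩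

end Cfsg.Agent.Lib.Helper11
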