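import Mathlib
import Cfsg.Agent.Lib.Helper11.Words
import Cfsg.Agent.Lib.Helper11.Order
import Cfsg.Agent.Lib.Helper11.Cover

/-!
# Comparison of Mathlib's Coxeter groups with `CoxPresented` groups
-/

set_option autoImplicit false

namespace Cfsg.Agent.Lib.Helper11

open Cfsg.Spor

section Bridge

variable {n : ℕ} (M : CoxeterMatrix (Fin n)) {α : Type} [DecidableEq α]
  (edges : List (α × ℕ × α)) (extra : List (FreeGroup α)) (f : α → Fin n) (g : Fin n → α)

theorem cm_simple_rel (i j : Fin n) : (M.simple i * M.simple j) ^ M i j = 1 :=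
  M.toCoxeterSystem.simple_mul_simple_pow i j

theorem cm_simple_sq (i : Fin n) : M.simple i * M.simple i = 1 :=
  M.toCoxeterSystem.simple_mul_simple_self i

theorem bridge_rels (hl : ∀ x y, coxLabel edges x y = M (f x) (f y))
    (hextra : ∀ r ∈ extra, FreeGroup.lift (fun x => M.simple (f x)) r = 1) :
    ∀ r ∈ coxRelators edges ∪ {r | r ∈ extra}, FreeGroup.lift (fun x => M.simple (f x)) r = 1 := by
  apply lift_rels
  · intro x _ y _
    rw [hl]
    exact cm_simple_rel M _ _
  · exact hextra

theorem bridge_liftable (hn : ∀ x, x ∈ coxNodes edges)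
    (hl : ∀ x y, coxLabel edges x y = M (f x) (f y)) (hfg : ∀ i, f (g i) = i) :
    M.IsLiftable (fun i => (PresentedGroup.of (g i) : CoxPresented α edges extra)) := by
  intro i j
  have h := cox_rel edges extra (g i) (g j) (hn _) (hn _)
  rw [hl, hfg, hfg] at h
  exact h

/-- the comparison isomorphism -/
theorem bridge (hn : ∀ x, x ∈ coxNodes edges)
    (hl : ∀ x y, coxLabel edges x y = M (f x) (f y)) (hfg : ∀ i, f (g i) = i)
    (hgf : ∀ x, g (f x) = x)
    (hextra : ∀ r ∈ extra, FreeGroup.lift (fun x => M.simple (f x)) r = 1) :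
    ∃ φ : M.Group ≃* CoxPresented α edges extra,
      ∀ i, φ (M.simple i) = PresentedGroup.of (g i) := by
  let t : CoxPresented α edges extra →* M.Group :=
    PresentedGroup.toGroup (bridge_rels M edges extra f hl hextra)
  let s : M.Group →* CoxPresented α edges extra :=
    M.toCoxeterSystem.lift ⟨_, bridge_liftable M edges extra f g hn hl hfg⟩
  have hs : ∀ i, s (M.simple i) = PresentedGroup.of (g i) := fun i =>
    M.toCoxeterSystem.lift_apply_simple (bridge_liftable M edges extra f g hn hl hfg) i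
  have ht : ∀ x, t (PresentedGroup.of x) = M.simple (f x) := fun x =>
    PresentedGroup.toGroup.of (bridge_rels M edges extra f hl hextra)
  have h1 : t.comp s = MonoidHom.id _ := by
    apply M.toCoxeterSystem.ext_simple
    intro i
    show t (s (M.simple i)) = M.simple i
    rw [hs, ht, hfg]
  have h2 : s.comp t = MonoidHom.id _ := by
    apply PresentedGroup.ext
    intro x
    show s (t (PresentedGroup.of x)) = PresentedGroup.of x
    rw [ht, hs, hgf]
  exact ⟨MonoidHom.toMulEquiv s t h1 h2, hs⟩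

/-- transport of a faithful model -/
theorem bridge_pack (hn : ∀ x, x ∈ coxNodes edges)
    (hl : ∀ x y, coxLabel edges x y = M (f x) (f y)) (hfg : ∀ i, f (g i) = i)
    (hgf : ∀ x, g (f x) = x)
    (hextra : ∀ r ∈ extra, FreeGroup.lift (fun x => M.simple (f x)) r = 1)
    (ψ : CoxPresented α edges extra →* Equiv.Perm ℕ) (NT : ℕ → List (ℕ × ℕ))
    (hψ : ∀ x, ψ (PresentedGroup.of x) = netPerm (NT ((f x : ℕ) + 1)))
    (N : ℕ) (bs : List ℕ)
    (hord : Nat.card (CoxPresented α edges extra) = N ∧ stabL ψ bs = ⊥) :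
    Nat.card M.Group = N ∧ ∃ ψ' : M.Group →* Equiv.Perm ℕ,
      (∀ i, ψ' (M.simple i) = netPerm (NT ((i : ℕ) + 1))) ∧ stabL ψ' bs = ⊥ := by
  obtain ⟨φ, hφ⟩ := bridge M edges extra f g hn hl hfg hgf hextra
  refine ⟨by rw [Nat.card_congr φ.toEquiv, hord.1], ψ.comp φ.toMonoidHom, ?_, ?_⟩
  · intro i
    show ψ (φ (M.simple i)) = _
    rw [hφ, hψ, hfg]
  · rw [eq_bot_iff]
    intro x hx
    have h1 : φ x ∈ stabL ψ bs := hx
    rw [hord.2, Subgroup.mem_bot] at h1
    rw [Subgroup.mem_bot]
    exact φ.injective (by rw [h1, map_one])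

end Bridge

end Cfsg.Agent.Lib.Helper11
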