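import Mathlib
import Cfsg.Agent.Lib.Helper11.CoxBridge

/-!
# Coxeter elements, centres and generation of Coxeter groups with a faithful network model
-/

set_option autoImplicit false

namespace Cfsg.Agent.Lib.Helper11

theorem wordPerm_nil' (NT : ℕ → List (ℕ × ℕ)) : wordPerm NT [] = 1 := by simp [wordPerm]

theorem wordPerm_append' (NT : ℕ → List (ℕ × ℕ)) (w1 w2 : List ℕ) :
    wordPerm NT (w1 ++ w2) = wordPerm NT w1 * wordPerm NT w2 := by simp [wordPerm]

/-- repeat a word -/
def repW (w : List ℕ) : ℕ → List ℕ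
  | 0 => []
  | m + 1 => w ++ repW w m

theorem wordPerm_repW (NT : ℕ → List (ℕ × ℕ)) (w : List ℕ) (m : ℕ) :
    wordPerm NT (repW w m) = wordPerm NT w ^ m := by
  induction m with
  | zero => simp [repW, wordPerm_nil']
  | succ m ih => rw [repW, wordPerm_append', ih, pow_succ']

theorem wordPerm_ne_one (P2 : ℕ) (NT : ℕ → List (ℕ × ℕ))
    (hNT : ∀ l, ∀ st ∈ NT l, stOK P2 st = true) (w : List ℕ) (V : ℕ)
    (h : Nat.beq (applyWord NT w V) V = false) : wordPerm NT w ≠ 1 := by
  intro h1
  have h2 : applyWord NT w V = V := by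
    apply Nat.eq_of_testBit_eq
    intro p
    rw [applyWord_spec P2 NT hNT]
    have h3 : (w.map fun l => netPerm (NT l)).prod = 1 := h1
    rw [h3]; rfl
  rw [h2, Nat.beq_refl] at h
  exact absurd h (by simp)

theorem wordPerm_val (P2 : ℕ) (NT : ℕ → List (ℕ × ℕ))
    (hNT : ∀ l, ∀ st ∈ NT l, stOK P2 st = true) (w : List ℕ) (p q : ℕ)
    (h : Nat.beq (applyWord NT w (Nat.pow 2 q)) (Nat.pow 2 p) = true) : wordPerm NT w p = q := by
  have h1 : applyWord NT w (2 ^ q) = 2 ^ p := Nat.eq_of_beq_eq_true h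
  have h2 := applyWord_spec P2 NT hNT w (2 ^ q) p
  rw [h1, Nat.testBit_two_pow_self, Nat.testBit_two_pow] at h2
  have h3 : q = (w.map fun l => netPerm (NT l)).prod p := by simpa using h2.symm
  exact h3.symm

/-! ## straight line programs -/

/-- check of a straight line program: every new word is the product of known words -/
noncomputable def slpChk (NT : ℕ → List (ℕ × ℕ)) (k : ℕ) :
    List (List ℕ) → List (List ℕ × List ℕ) → Bool
  | _, [] => true
  | known, x :: rest =>
    wordEq NT k (x.1.flatMap (fun i => known.getD i [])) x.2 && slpChk NT k (known ++ [x.2]) rest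

theorem slp_flat {G : Type*} [Group G] (ψ : G →* Equiv.Perm ℕ) (NT : ℕ → List (ℕ × ℕ))
    (K : Subgroup G) (known : List (List ℕ))
    (h : ∀ w ∈ known, ∃ x ∈ K, ψ x = wordPerm NT w) (idx : List ℕ) :
    ∃ x ∈ K, ψ x = wordPerm NT (idx.flatMap (fun i => known.getD i [])) := by
  induction idx with
  | nil => exact ⟨1, K.one_mem, by simp [wordPerm_nil']⟩
  | cons i idx ih =>
    obtain ⟨y, hy, ey⟩ := ih
    have h1 : ∃ x ∈ K, ψ x = wordPerm NT (known.getD i []) := by
      by_cases hi : i < known.length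
      · rw [List.getD_eq_getElem _ _ hi]
        exact h _ (List.getElem_mem hi)
      · rw [List.getD_eq_default _ _ (by omega)]
        exact ⟨1, K.one_mem, by simp [wordPerm_nil']⟩
    obtain ⟨x, hx, ex⟩ := h1
    refine ⟨x * y, K.mul_mem hx hy, ?_⟩
    rw [List.flatMap_cons, wordPerm_append', map_mul, ex, ey]

theorem slp_spec {G : Type*} [Group G] (ψ : G →* Equiv.Perm ℕ) (NT : ℕ → List (ℕ × ℕ)) (k : ℕ)
    (hNT : ∀ l, ∀ st ∈ NT l, stOK (2 ^ (2 ^ k)) st = true) (K : Subgroup G) :
    ∀ (steps : List (List ℕ × List ℕ)) (known : List (List ℕ)),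
      (∀ w ∈ known, ∃ x ∈ K, ψ x = wordPerm NT w) → slpChk NT k known steps = true →
      ∀ w ∈ known ++ steps.map Prod.snd, ∃ x ∈ K, ψ x = wordPerm NT w := by
  intro steps
  induction steps with
  | nil => intro known h _ w hw; exact h w (by simpa using hw)
  | cons x rest ih =>
    intro known h hc w hw
    rw [slpChk, Bool.and_eq_true] at hc
    have h1 : ∀ w ∈ known ++ [x.2], ∃ y ∈ K, ψ y = wordPerm NT w := by
      intro w hw
      rw [List.mem_append, List.mem_singleton] at hw
      rcases hw with hw | rfl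
      · exact h w hw
      · obtain ⟨y, hy, ey⟩ := slp_flat ψ NT K known h x.1
        exact ⟨y, hy, by rw [ey, wordEq_spec NT k hNT _ _ hc.1]⟩
    exact ih _ h1 hc.2 w (by simpa using hw)

/-! ## Coxeter groups -/

/-- the word of the Coxeter element -/
def coxW (n : ℕ) : List ℕ := (List.range n).map (· + 1)

/-- the generators as words -/
def gmoves (n : ℕ) : List (List ℕ) := (List.range n).map (fun i => [i + 1])

section CoxW

variable {n : ℕ} (M : CoxeterMatrix (Fin n)) (ψ : M.Group →* Equiv.Perm ℕ)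
  (NT : ℕ → List (ℕ × ℕ)) (k : ℕ)

theorem cm_closure : Subgroup.closure (Set.range M.simple) = ⊤ :=
  M.toCoxeterSystem.subgroup_closure_range_simple

variable (hψ : ∀ i, ψ (M.simple i) = netPerm (NT ((i : ℕ) + 1)))

include hψ in
theorem psi_coxElt : ψ ((List.finRange n).map M.simple).prod = wordPerm NT (coxW n) := by
  rw [map_list_prod, List.map_map]
  unfold wordPerm coxW
  rw [List.map_map, ← List.map_coe_finRange_eq_range, List.map_map]
  congr 1
  apply List.map_congr_left
  intro i _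
  exact hψ i

include hψ in
theorem psi_letter (l : ℕ) (h1 : 1 ≤ l) (h2 : l ≤ n) :
    ∃ i : Fin n, ψ (M.simple i) = wordPerm NT [l] := by
  refine ⟨⟨l - 1, by omega⟩, ?_⟩
  rw [hψ, wordPerm_single]
  have : l - 1 + 1 = l := by omega
  show netPerm (NT (l - 1 + 1)) = _
  rw [this]

include hψ in
theorem hT_gmoves : ∀ t ∈ Set.range M.simple, ∃ w ∈ gmoves n, ψ t = wordPerm NT w := by
  rintro _ ⟨i, rfl⟩
  refine ⟨[(i : ℕ) + 1], ?_, by rw [hψ, wordPerm_single]⟩
  simp only [gmoves, List.mem_map, List.mem_range]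
  exact ⟨i, i.2, rfl⟩

include hψ in
theorem hmoves_gmoves :
    ∀ w ∈ gmoves n, ∃ t ∈ (⊤ : Subgroup M.Group), ψ t = wordPerm NT w := by
  intro w hw
  simp only [gmoves, List.mem_map, List.mem_range] at hw
  obtain ⟨i, hi, rfl⟩ := hw
  exact ⟨M.simple ⟨i, hi⟩, Subgroup.mem_top _, by rw [hψ, wordPerm_single]⟩

variable (hNT : ∀ l, ∀ st ∈ NT l, stOK (2 ^ (2 ^ k)) st = true)
  (bs : List ℕ) (hst : stabL ψ bs = ⊥)

include hψ hNT hst in
/-- the order of the Coxeter element -/
theorem cox_order (h p0 : ℕ) (hpos : 0 < h)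
    (h1 : wordId NT k (repW (coxW n) h) = true)
    (h2 : (List.range (h - 1)).all (fun m =>
      !(Nat.beq (applyWord NT (repW (coxW n) (m + 1)) (Nat.pow 2 p0)) (Nat.pow 2 p0))) = true) :
    orderOf ((List.finRange n).map M.simple).prod = h := by
  have hinj := inj_of_stabL_bot ψ bs hst
  rw [orderOf_eq_iff hpos]
  constructor
  · apply hinj
    rw [map_pow, psi_coxElt M ψ NT hψ, ← wordPerm_repW, map_one]
    exact wordId_spec NT k hNT _ h1
  · intro m hm hm0 he
    have h3 := congrArg ψ he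
    rw [map_pow, psi_coxElt M ψ NT hψ, ← wordPerm_repW, map_one] at h3
    rw [List.all_eq_true] at h2
    have h4 := h2 (m - 1) (List.mem_range.2 (by omega))
    have h5 : m - 1 + 1 = m := by omega
    rw [h5] at h4
    refine wordPerm_ne_one _ NT hNT _ (Nat.pow 2 p0) ?_ h3
    simpa using h4

include hψ hNT hst in
theorem center_fix_eq_one (N r0 : ℕ) (hbn : ∀ b ∈ bs, b < N)
    (htr : growChk NT (gmoves n) r0 0 0 N = true) (z : M.Group)
    (hz : z ∈ Subgroup.center M.Group) (h0 : ψ z 0 = 0) : z = 1 := by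
  have h1 : z ∈ stabL ψ bs := by
    intro b hb
    obtain ⟨g, _, hg⟩ := reach_of_grow ψ ⊤ _ NT hNT (gmoves n) (hmoves_gmoves M ψ NT hψ) 0 r0 0 N
      htr b (Nat.zero_le _) (by have := hbn b hb; omega)
    rw [← hg, ← Equiv.Perm.mul_apply, ← map_mul, ← Subgroup.mem_center_iff.1 hz g, map_mul,
      Equiv.Perm.mul_apply, h0]
  rw [hst] at h1
  exact Subgroup.mem_bot.1 h1

include hψ hNT in
theorem center_cases (N : ℕ) (hN : 0 < N) (hinvn : fixChk NT (gmoves n) 0 N = true)
    (hl : List ℕ) (hhl : ∀ l ∈ hl, 1 ≤ l ∧ l ≤ n)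
    (hfix0 : fixChk NT (hl.map (fun l => [l])) 0 1 = true) (q0 : ℕ)
    (hmv : (List.range N).all (fun p => Nat.beq p 0 || (Nat.beq p q0 ||
      hl.any (fun l => !(Nat.testBit (applyNet (NT l) (Nat.pow 2 p)) p)))) = true)
    (z : M.Group) (hz : z ∈ Subgroup.center M.Group) : ψ z 0 = 0 ∨ ψ z 0 = q0 := by
  have hqN : ψ z 0 < N := by
    have := (inv_of_bits ψ (Set.range M.simple) _ NT hNT (gmoves n) (hT_gmoves M ψ NT hψ) 0 N hinvn z
      (by rw [cm_closure]; exact Subgroup.mem_top _) 0).2 ⟨le_refl _, by omega⟩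
    omega
  have hfixq : ∀ l ∈ hl, netPerm (NT l) (ψ z 0) = ψ z 0 := by
    intro l hl'
    obtain ⟨i, hi⟩ := psi_letter M ψ NT hψ l (hhl l hl').1 (hhl l hl').2
    have h0 : wordPerm NT [l] 0 = 0 :=
      fix_of_fixChk _ NT hNT _ 0 hfix0 [l] (List.mem_map_of_mem hl')
    rw [← wordPerm_single, ← hi, ← Equiv.Perm.mul_apply, ← map_mul,
      Subgroup.mem_center_iff.1 hz _, map_mul, Equiv.Perm.mul_apply, hi, h0]
  rw [List.all_eq_true] at hmv
  have h1 := hmv _ (List.mem_range.2 hqN)
  simp only [Bool.or_eq_true] at h1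
  rcases h1 with h | h | h
  · left; exact Nat.eq_of_beq_eq_true h
  · right; exact Nat.eq_of_beq_eq_true h
  · exfalso
    rw [List.any_eq_true] at h
    obtain ⟨l, hl', h⟩ := h
    have h1 := applyNet_spec _ (NT l) (hNT l) (2 ^ (ψ z 0)) (ψ z 0)
    rw [hfixq l hl', Nat.testBit_two_pow_self] at h1
    have h2 : (applyNet (NT l) (Nat.pow 2 (ψ z 0))).testBit (ψ z 0) = true := h1
    rw [h2] at h
    exact absurd h (by simp)

include hψ hNT hst in
/-- trivial centre -/
theorem cox_center_one (N r0 : ℕ) (hN : 0 < N) (hbn : ∀ b ∈ bs, b < N)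
    (htr : growChk NT (gmoves n) r0 0 0 N = true)
    (hinvn : fixChk NT (gmoves n) 0 N = true)
    (hl : List ℕ) (hhl : ∀ l ∈ hl, 1 ≤ l ∧ l ≤ n)
    (hfix0 : fixChk NT (hl.map (fun l => [l])) 0 1 = true)
    (hmv : (List.range N).all (fun p => Nat.beq p 0 || (Nat.beq p 0 ||
      hl.any (fun l => !(Nat.testBit (applyNet (NT l) (Nat.pow 2 p)) p)))) = true) :
    Nat.card (Subgroup.center M.Group) = 1 ∧
      Subgroup.center M.Group ≤ Subgroup.zpowers ((List.finRange n).map M.simple).prod := by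
  have h : Subgroup.center M.Group = ⊥ := by
    rw [eq_bot_iff]
    intro z hz
    rw [Subgroup.mem_bot]
    apply center_fix_eq_one M ψ NT k hψ hNT bs hst N r0 hbn htr z hz
    rcases center_cases M ψ NT k hψ hNT N hN hinvn hl hhl hfix0 0 hmv z hz with h | h <;> exact h
  rw [h]
  exact ⟨Subgroup.card_bot, bot_le⟩

include hψ hNT hst in
/-- centre of order two, generated by a power of the Coxeter element -/
theorem cox_center_two (N r0 : ℕ) (hN : 0 < N) (hbn : ∀ b ∈ bs, b < N)
    (htr : growChk NT (gmoves n) r0 0 0 N = true)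
    (hinvn : fixChk NT (gmoves n) 0 N = true)
    (hl : List ℕ) (hhl : ∀ l ∈ hl, 1 ≤ l ∧ l ≤ n)
    (hfix0 : fixChk NT (hl.map (fun l => [l])) 0 1 = true) (q0 : ℕ)
    (hmv : (List.range N).all (fun p => Nat.beq p 0 || (Nat.beq p q0 ||
      hl.any (fun l => !(Nat.testBit (applyNet (NT l) (Nat.pow 2 p)) p)))) = true)
    (h' : ℕ) (hh' : 0 < h') (hord : orderOf ((List.finRange n).map M.simple).prod = 2 * h')
    (hcomm : (List.range n).all (fun i => wordEq NT k ((i + 1) :: repW (coxW n) h')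
      (repW (coxW n) h' ++ [i + 1])) = true)
    (hq0 : Nat.beq (applyWord NT (repW (coxW n) h') (Nat.pow 2 q0)) (Nat.pow 2 0) = true) :
    Nat.card (Subgroup.center M.Group) = 2 ∧
      Subgroup.center M.Group ≤ Subgroup.zpowers ((List.finRange n).map M.simple).prod := by
  have hinj := inj_of_stabL_bot ψ bs hst
  set c := ((List.finRange n).map M.simple).prod with hc
  have hz0 : ψ (c ^ h') = wordPerm NT (repW (coxW n) h') := by
    rw [map_pow, hc, psi_coxElt M ψ NT hψ, wordPerm_repW]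
  have hcen : c ^ h' ∈ Subgroup.center M.Group := by
    rw [Subgroup.mem_center_iff]
    intro g
    have hg : g ∈ Subgroup.closure (Set.range M.simple) := by
      rw [cm_closure]; exact Subgroup.mem_top _
    induction hg using Subgroup.closure_induction with
    | mem t ht =>
      obtain ⟨i, rfl⟩ := ht
      apply hinj
      rw [List.all_eq_true] at hcomm
      have h1 := wordEq_spec NT k hNT _ _ (hcomm i (List.mem_range.2 i.2))
      rw [map_mul, map_mul, hz0, hψ, ← wordPerm_single, ← wordPerm_append', ← wordPerm_append']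
      exact h1
    | one => simp
    | mul x y _ _ hx hy => rw [mul_assoc, hy, ← mul_assoc, hx, mul_assoc]
    | inv x _ hx =>
      have : c ^ h' = x * c ^ h' * x⁻¹ := by rw [hx]; group
      calc x⁻¹ * c ^ h' = x⁻¹ * (x * c ^ h' * x⁻¹) := by rw [← this]
        _ = c ^ h' * x⁻¹ := by group
  have hval : ψ (c ^ h') 0 = q0 := by
    rw [hz0]; exact wordPerm_val _ NT hNT _ 0 q0 hq0
  have hcases : ∀ z ∈ Subgroup.center M.Group, z = 1 ∨ z = c ^ h' := by
    intro z hz
    rcases center_cases M ψ NT k hψ hNT N hN hinvn hl hhl hfix0 q0 hmv z hz with h | h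
    · left
      exact center_fix_eq_one M ψ NT k hψ hNT bs hst N r0 hbn htr z hz h
    · right
      have h1 : (c ^ h')⁻¹ * z = 1 := by
        apply center_fix_eq_one M ψ NT k hψ hNT bs hst N r0 hbn htr _
          (Subgroup.mul_mem _ (Subgroup.inv_mem _ hcen) hz)
        rw [map_mul, Equiv.Perm.mul_apply, h, ← hval, ← Equiv.Perm.mul_apply, ← map_mul,
          inv_mul_cancel, map_one]
        rfl
      exact (inv_mul_eq_one.1 h1).symm
  have hsq : (c ^ h') ^ 2 = 1 := by
    rw [← pow_mul, Nat.mul_comm, ← hord, pow_orderOf_eq_one]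
  have hne : c ^ h' ≠ 1 := pow_ne_one_of_lt_orderOf (by omega) (by omega)
  have hord2 : orderOf (c ^ h') = 2 := orderOf_eq_prime hsq hne
  have heq : Subgroup.center M.Group = Subgroup.zpowers (c ^ h') := by
    apply le_antisymm
    · intro z hz
      rcases hcases z hz with rfl | rfl
      · exact Subgroup.one_mem _
      · exact Subgroup.mem_zpowers _
    · rw [Subgroup.zpowers_le]
      exact hcen
  constructor
  · rw [heq, Nat.card_zpowers, hord2]
  · rw [heq, Subgroup.zpowers_le]
    exact Subgroup.npow_mem_zpowers _ _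

include hψ hNT hst in
/-- generation by the Coxeter element and some simple reflections -/
theorem cox_gen (T : Set M.Group) (tl : List ℕ)
    (hT : ∀ l ∈ tl, ∃ t ∈ T, ψ t = wordPerm NT [l])
    (cwr : List ℕ) (hcwr : wordId NT k (coxW n ++ cwr) = true)
    (steps : List (List ℕ × List ℕ))
    (hchk : slpChk NT k (coxW n :: cwr :: tl.map (fun l => [l])) steps = true)
    (hall : (List.range n).all (fun i => decide ([i + 1] ∈
      (coxW n :: cwr :: tl.map (fun l => [l])) ++ steps.map Prod.snd)) = true) :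
    Subgroup.closure (({((List.finRange n).map M.simple).prod} : Set M.Group) ∪ T) = ⊤ := by
  have hinj := inj_of_stabL_bot ψ bs hst
  set c := ((List.finRange n).map M.simple).prod with hc
  set K := Subgroup.closure (({c} : Set M.Group) ∪ T) with hK
  have hcK : c ∈ K := Subgroup.subset_closure (by simp)
  have h0 : ∀ w ∈ coxW n :: cwr :: tl.map (fun l => [l]), ∃ x ∈ K, ψ x = wordPerm NT w := by
    intro w hw
    rw [List.mem_cons, List.mem_cons] at hw
    rcases hw with rfl | rfl | hw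
    · exact ⟨c, hcK, psi_coxElt M ψ NT hψ⟩
    · refine ⟨c⁻¹, K.inv_mem hcK, ?_⟩
      have h1 : wordPerm NT (coxW n ++ w) = 1 := wordId_spec NT k hNT _ hcwr
      rw [wordPerm_append', ← psi_coxElt M ψ NT hψ] at h1
      rw [map_inv]
      exact (eq_inv_of_mul_eq_one_right h1).symm
    · obtain ⟨l, hl, rfl⟩ := List.mem_map.1 hw
      obtain ⟨t, ht, e⟩ := hT l hl
      exact ⟨t, Subgroup.subset_closure (Or.inr ht), e⟩
  have h1 := slp_spec ψ NT k hNT K steps _ h0 hchk
  rw [eq_top_iff, ← cm_closure M, Subgroup.closure_le]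
  rintro _ ⟨i, rfl⟩
  rw [List.all_eq_true] at hall
  have h2 := of_decide_eq_true (hall i (List.mem_range.2 i.2))
  obtain ⟨x, hx, e⟩ := h1 _ h2
  have h3 : x = M.simple i := by
    apply hinj
    rw [e, hψ, wordPerm_single]
  rw [← h3]
  exact hx

include hψ hNT hst in
theorem cox_gen_one (i0 : Fin n)
    (cwr : List ℕ) (hcwr : wordId NT k (coxW n ++ cwr) = true)
    (steps : List (List ℕ × List ℕ))
    (hchk : slpChk NT k (coxW n :: cwr :: [(i0 : ℕ) + 1].map (fun l => [l])) steps = true)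
    (hall : (List.range n).all (fun i => decide ([i + 1] ∈
      (coxW n :: cwr :: [(i0 : ℕ) + 1].map (fun l => [l])) ++ steps.map Prod.snd)) = true) :
    ∃ T : Finset M.Group, T.card = 1 ∧
      (∀ t ∈ T, ∃ (g : M.Group) (i : Fin n), t = g * M.simple i * g⁻¹) ∧
      Subgroup.closure (({((List.finRange n).map M.simple).prod} : Set M.Group) ∪ ↑T) = ⊤ := by
  classical
  refine ⟨{M.simple i0}, Finset.card_singleton _, ?_, ?_⟩
  · intro t ht
    rw [Finset.mem_singleton] at ht
    exact ⟨1, i0, by rw [ht]; simp⟩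
  · apply cox_gen M ψ NT k hψ hNT bs hst _ [(i0 : ℕ) + 1] _ cwr hcwr steps hchk hall
    intro l hl
    rw [List.mem_singleton] at hl
    subst hl
    exact ⟨M.simple i0, by simp, by rw [hψ, wordPerm_single]⟩

include hψ hNT hst in
theorem cox_gen_two (i0 i1 : Fin n) (V : ℕ)
    (hne : Nat.beq (applyWord NT [(i0 : ℕ) + 1, (i1 : ℕ) + 1] V) V = false)
    (cwr : List ℕ) (hcwr : wordId NT k (coxW n ++ cwr) = true)
    (steps : List (List ℕ × List ℕ))
    (hchk : slpChk NT k (coxW n :: cwr :: [(i0 : ℕ) + 1, (i1 : ℕ) + 1].map (fun l => [l])) steps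
      = true)
    (hall : (List.range n).all (fun i => decide ([i + 1] ∈
      (coxW n :: cwr :: [(i0 : ℕ) + 1, (i1 : ℕ) + 1].map (fun l => [l])) ++ steps.map Prod.snd))
      = true) :
    ∃ T : Finset M.Group, T.card = 2 ∧
      (∀ t ∈ T, ∃ (g : M.Group) (i : Fin n), t = g * M.simple i * g⁻¹) ∧
      Subgroup.closure (({((List.finRange n).map M.simple).prod} : Set M.Group) ∪ ↑T) = ⊤ := by
  classical
  have hd : M.simple i0 ≠ M.simple i1 := by
    intro h
    apply wordPerm_ne_one _ NT hNT _ V hne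
    have h1 : wordPerm NT [(i0 : ℕ) + 1, (i1 : ℕ) + 1] =
        wordPerm NT [(i0 : ℕ) + 1] * wordPerm NT [(i1 : ℕ) + 1] := wordPerm_append' NT [_] [_]
    rw [h1, wordPerm_single, wordPerm_single, ← hψ, ← hψ, ← map_mul, h, cm_simple_sq, map_one]
  refine ⟨{M.simple i0, M.simple i1}, Finset.card_pair hd, ?_, ?_⟩
  · intro t ht
    rw [Finset.mem_insert, Finset.mem_singleton] at ht
    rcases ht with rfl | rfl
    · exact ⟨1, i0, by simp⟩
    · exact ⟨1, i1, by simp⟩
  · apply cox_gen M ψ NT k hψ hNT bs hst _ [(i0 : ℕ) + 1, (i1 : ℕ) + 1] _ cwr hcwr steps hchk hall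
    intro l hl
    rw [List.mem_cons, List.mem_singleton] at hl
    rcases hl with rfl | rfl
    · exact ⟨M.simple i0, by simp, by rw [hψ, wordPerm_single]⟩
    · exact ⟨M.simple i1, by simp, by rw [hψ, wordPerm_single]⟩

end CoxW

end Cfsg.Agent.Lib.Helper11
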