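import Mathlib
import Cfsg.Prelude.Def_SporCoxeter

/-!
# An auxiliary presentation: the sub-diagram `l k a b c d e f h i` of the diagram of Fi24
-/

set_option autoImplicit false

namespace Cfsg.Agent.Lib.Helper11

namespace P3

/-- the generators -/
inductive Gen
  | l
  | k
  | a
  | b
  | c
  | d
  | e
  | f
  | h
  | i
  deriving DecidableEq

/-- generator -/ abbrev l : FreeGroup Gen := FreeGroup.of Gen.l
/-- generator -/ abbrev k : FreeGroup Gen := FreeGroup.of Gen.k
/-- generator -/ abbrev a : FreeGroup Gen := FreeGroup.of Gen.a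
/-- generator -/ abbrev b : FreeGroup Gen := FreeGroup.of Gen.b
/-- generator -/ abbrev c : FreeGroup Gen := FreeGroup.of Gen.c
/-- generator -/ abbrev d : FreeGroup Gen := FreeGroup.of Gen.d
/-- generator -/ abbrev e : FreeGroup Gen := FreeGroup.of Gen.e
/-- generator -/ abbrev f : FreeGroup Gen := FreeGroup.of Gen.f
/-- generator -/ abbrev h : FreeGroup Gen := FreeGroup.of Gen.h
/-- generator -/ abbrev i : FreeGroup Gen := FreeGroup.of Gen.i

/-- the diagram -/
def edges : List (Gen × ℕ × Gen) :=
  [(.l, 3, .k), (.k, 3, .a), (.a, 3, .b), (.b, 3, .c), (.c, 3, .d), (.d, 3, .e), (.d, 3, .h), (.e, 3, .f), (.h, 3, .i)]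

/-- the further relator -/
def extra : List (FreeGroup Gen) := [
  l * (((a * b * c * d * e * f * h) ^ 9)⁻¹) ]

end P3

/-- the auxiliary group -/
abbrev P3 : Type := Cfsg.Spor.CoxPresented P3.Gen P3.edges P3.extra

end Cfsg.Agent.Lib.Helper11
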