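import Mathlib
import Cfsg.Prelude.Def_SporCoxeter

/-!
# An auxiliary presentation: the sub-diagram `a b c d e` of the diagram of He
-/

set_option autoImplicit false

namespace Cfsg.Agent.Lib.Helper11

namespace P5

/-- the generators -/
inductive Gen
  | a
  | b
  | c
  | d
  | e
  deriving DecidableEq

/-- generator -/ abbrev a : FreeGroup Gen := FreeGroup.of Gen.a
/-- generator -/ abbrev b : FreeGroup Gen := FreeGroup.of Gen.b
/-- generator -/ abbrev c : FreeGroup Gen := FreeGroup.of Gen.c
/-- generator -/ abbrev d : FreeGroup Gen := FreeGroup.of Gen.d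
/-- generator -/ abbrev e : FreeGroup Gen := FreeGroup.of Gen.e

/-- the diagram -/
def edges : List (Gen × ℕ × Gen) :=
  [(.a, 4, .b), (.b, 3, .c), (.c, 10, .d), (.d, 3, .e)]

/-- the further relators -/
def extra : List (FreeGroup Gen) := [
  e * ((a * b * c) ^ 3)⁻¹,
  a * ((c * d) ^ 5)⁻¹ ]

end P5

/-- the auxiliary group -/
abbrev P5 : Type := Cfsg.Spor.CoxPresented P5.Gen P5.edges P5.extra

end Cfsg.Agent.Lib.Helper11
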