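import Mathlib
import Cfsg.Prelude.Def_SporCoxeter

/-!
# The Coxeter presentation `WF4` written as a `CoxPresented` group
-/

set_option autoImplicit false

namespace Cfsg.Agent.Lib.Helper11

namespace WF4

/-- the generators -/
inductive Gen
  | a
  | b
  | c
  | d
  deriving DecidableEq

/-- generator -/ abbrev a : FreeGroup Gen := FreeGroup.of Gen.a
/-- generator -/ abbrev b : FreeGroup Gen := FreeGroup.of Gen.b
/-- generator -/ abbrev c : FreeGroup Gen := FreeGroup.of Gen.c
/-- generator -/ abbrev d : FreeGroup Gen := FreeGroup.of Gen.d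

/-- the diagram -/
def edges : List (Gen × ℕ × Gen) :=
  [(.a, 3, .b), (.b, 4, .c), (.c, 3, .d)]

/-- a redundant further relator -/
def extra : List (FreeGroup Gen) := [
  a * a ]

end WF4

/-- the group -/
abbrev WF4 : Type := Cfsg.Spor.CoxPresented WF4.Gen WF4.edges WF4.extra

end Cfsg.Agent.Lib.Helper11
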