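import Mathlib
import Cfsg.Prelude.Def_SporCoxeter

/-!
# The Coxeter presentation `WG2` written as a `CoxPresented` group
-/

set_option autoImplicit false

namespace Cfsg.Agent.Lib.Helper11

namespace WG2

/-- the generators -/
inductive Gen
  | a
  | b
  deriving DecidableEq

/-- generator -/ abbrev a : FreeGroup Gen := FreeGroup.of Gen.a
/-- generator -/ abbrev b : FreeGroup Gen := FreeGroup.of Gen.b

/-- the diagram -/
def edges : List (Gen × ℕ × Gen) :=
  [(.a, 6, .b)]

/-- a redundant further relator -/
def extra : List (FreeGroup Gen) := [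
  a * a ]

end WG2

/-- the group -/
abbrev WG2 : Type := Cfsg.Spor.CoxPresented WG2.Gen WG2.edges WG2.extra

end Cfsg.Agent.Lib.Helper11
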