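import Mathlib
import Cfsg.Prelude.Def_SporCoxeter

/-!
# The sub-diagram `Y532` of `Y555` with the spider relation
-/

set_option autoImplicit false

namespace Cfsg.Agent.Lib.Helper11

namespace Y532

/-- the generators: centre `a`, arms `b c d e f`, `g h k`, `i j` -/
inductive Gen
  | a
  | b
  | c
  | d
  | e
  | f
  | g
  | h
  | k
  | i
  | j
  deriving DecidableEq

/-- generator -/ abbrev a : FreeGroup Gen := FreeGroup.of Gen.a
/-- generator -/ abbrev b : FreeGroup Gen := FreeGroup.of Gen.b
/-- generator -/ abbrev c : FreeGroup Gen := FreeGroup.of Gen.c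
/-- generator -/ abbrev d : FreeGroup Gen := FreeGroup.of Gen.d
/-- generator -/ abbrev e : FreeGroup Gen := FreeGroup.of Gen.e
/-- generator -/ abbrev f : FreeGroup Gen := FreeGroup.of Gen.f
/-- generator -/ abbrev g : FreeGroup Gen := FreeGroup.of Gen.g
/-- generator -/ abbrev h : FreeGroup Gen := FreeGroup.of Gen.h
/-- generator -/ abbrev k : FreeGroup Gen := FreeGroup.of Gen.k
/-- generator -/ abbrev i : FreeGroup Gen := FreeGroup.of Gen.i
/-- generator -/ abbrev j : FreeGroup Gen := FreeGroup.of Gen.j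

/-- the diagram -/
def edges : List (Gen × ℕ × Gen) :=
  [(.a, 3, .b), (.b, 3, .c), (.c, 3, .d), (.d, 3, .e), (.e, 3, .f), (.a, 3, .g), (.g, 3, .h), (.h, 3, .k), (.a, 3, .i), (.i, 3, .j)]

/-- the spider relator -/
def extra : List (FreeGroup Gen) := [
  (((((((((a * b) * c) * a) * g) * h) * a) * i) * j)) ^ 10 ]

end Y532

/-- the group -/
abbrev Y532 : Type := Cfsg.Spor.CoxPresented Y532.Gen Y532.edges Y532.extra

end Cfsg.Agent.Lib.Helper11
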