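import Mathlib
import Cfsg.Agent.Lib.Helper11.SimpleModel

/-!
# Simplicity of a subgroup of index two
-/

set_option autoImplicit false

namespace Cfsg.Agent.Lib.Helper11

section

variable {G : Type*} [Group G]

theorem normal_map_of_index_two (D : Subgroup G) [D.Normal] (hD : D.index = 2) (t : G) (ht : t ∉ D)
    (K : Subgroup D) [K.Normal] (hK : ∀ x ∈ K, MulAut.conjNormal t x ∈ K) :
    (K.map D.subtype).Normal := by
  constructor
  rintro _ ⟨x, hx, rfl⟩ g
  by_cases hg : g ∈ D
  · refine ⟨(⟨g, hg⟩ : D) * x * (⟨g, hg⟩ : D)⁻¹, ?_, rfl⟩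
    exact ‹K.Normal›.conj_mem x hx _
  · have hd : t⁻¹ * g ∈ D := by
      rw [Subgroup.mul_mem_iff_of_index_two hD]
      constructor
      · intro h; exact absurd (by simpa using D.inv_mem h) ht
      · intro h; exact absurd h hg
    have h1 : (⟨t⁻¹ * g, hd⟩ : D) * x * (⟨t⁻¹ * g, hd⟩ : D)⁻¹ ∈ K := ‹K.Normal›.conj_mem x hx _
    refine ⟨_, hK _ h1, ?_⟩
    simp only [Subgroup.coe_subtype, MulAut.conjNormal_apply, Subgroup.coe_mul, Subgroup.coe_inv]
    group

theorem simple_of_index_two [Finite G] (D : Subgroup G) [D.Normal] (hD : D.index = 2)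
    (hmin : ∀ N : Subgroup G, N.Normal → N ≠ ⊥ → D ≤ N) (hsq : ¬ IsSquare (Nat.card D)) :
    IsSimpleGroup D := by
  have hnt : Nontrivial D := by
    by_contra h
    rw [not_nontrivial_iff_subsingleton] at h
    apply hsq
    rw [Nat.card_of_subsingleton (1 : D)]
    exact ⟨1, rfl⟩
  obtain ⟨t, ht⟩ : ∃ t, t ∉ D := by
    by_contra h
    push_neg at h
    have : D = ⊤ := by rw [eq_top_iff]; intro x _; exact h x
    rw [this, Subgroup.index_top] at hD
    omega
  have ht2 : t * t ∈ D := by rw [Subgroup.mul_mem_iff_of_index_two hD]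
  refine { exists_pair_ne := hnt.exists_pair_ne, eq_bot_or_eq_top_of_normal := ?_ }
  intro M hM
  by_contra hcon
  push_neg at hcon
  obtain ⟨hMbot, hMtop⟩ := hcon
  set c : MulAut D := MulAut.conjNormal t with hc
  set Mt : Subgroup D := M.map c.toMonoidHom with hMt
  haveI hMtn : Mt.Normal := hM.map _ c.surjective
  have hcM : ∀ x ∈ M, c x ∈ Mt := fun x hx => ⟨x, hx, rfl⟩
  have hcc : ∀ y ∈ M, c (c y) ∈ M := by
    intro y hy
    have e : c (c y) = (⟨t * t, ht2⟩ : D) * y * (⟨t * t, ht2⟩ : D)⁻¹ := by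
      apply Subtype.ext
      simp only [hc, MulAut.conjNormal_apply, Subgroup.coe_mul, Subgroup.coe_inv]
      group
    rw [e]
    exact hM.conj_mem y hy _
  have hcMt : ∀ x ∈ Mt, c x ∈ M := by
    rintro _ ⟨y, hy, rfl⟩
    exact hcc y hy
  -- the intersection
  have hI : (M ⊓ Mt) = ⊥ := by
    by_contra hne
    haveI : ((M ⊓ Mt).map D.subtype).Normal :=
      normal_map_of_index_two D hD t ht (M ⊓ Mt) (fun x hx => ⟨hcMt x hx.2, hcM x hx.1⟩)
    have h1 := hmin ((M ⊓ Mt).map D.subtype) inferInstance (by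
      intro h0
      apply hne
      rw [Subgroup.map_eq_bot_iff_of_injective _ D.subtype_injective] at h0
      exact h0)
    apply hMtop
    rw [eq_top_iff]
    intro x _
    obtain ⟨y, hy, e⟩ := h1 x.2
    have : y = x := Subtype.ext e
    rw [← this]; exact hy.1
  have hJ : (M ⊔ Mt) = ⊤ := by
    haveI : ((M ⊔ Mt).map D.subtype).Normal := by
      apply normal_map_of_index_two D hD t ht (M ⊔ Mt)
      have hle : M ⊔ Mt ≤ (M ⊔ Mt).comap c.toMonoidHom := by
        apply sup_le
        · intro x hx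
          exact Subgroup.mem_sup_right (hcM x hx)
        · intro x hx
          exact Subgroup.mem_sup_left (hcMt x hx)
      exact fun x hx => hle hx
    have h1 := hmin ((M ⊔ Mt).map D.subtype) inferInstance (by
      intro h0
      apply hMbot
      rw [Subgroup.map_eq_bot_iff_of_injective _ D.subtype_injective] at h0
      rw [eq_bot_iff, ← h0]
      exact le_sup_left)
    rw [eq_top_iff]
    intro x _
    obtain ⟨y, hy, e⟩ := h1 x.2
    have : y = x := Subtype.ext e
    rw [← this]; exact hy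
  apply hsq
  have h1 : Mt.relIndex (M ⊔ Mt) = Mt.relIndex M := Subgroup.relIndex_sup_right M Mt
  rw [hJ, Subgroup.relIndex_top_right, ← Subgroup.inf_relIndex_right, inf_comm, hI,
    Subgroup.relIndex_bot_left] at h1
  have h2 := Mt.index_mul_card
  have h3 : Nat.card Mt = Nat.card M := by
    rw [hMt]
    exact Subgroup.card_map_of_injective c.injective
  rw [h1, h3] at h2
  exact ⟨Nat.card M, h2.symm⟩

theorem commutator_le_of_iwasawa (H A : Subgroup G)
    (hmax : IsCoatom H) (hfaith : ∀ g : G, (∀ q : G ⧸ H, g • q = q) → g = 1)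
    (hcomm : ∀ a ∈ A, ∀ b ∈ A, a * b = b * a)
    (hA : ∀ h ∈ H, ∀ a ∈ A, h * a * h⁻¹ ∈ A)
    (hgen : Subgroup.normalClosure (A : Set G) = ⊤) :
    ∀ N : Subgroup G, N.Normal → N ≠ ⊥ → commutator G ≤ N := by
  intro N hN hne
  haveI : Nontrivial (G ⧸ H) := by
    by_contra hn
    rw [not_nontrivial_iff_subsingleton] at hn
    apply hmax.1
    rw [eq_top_iff]
    intro g _
    have : ((g : G) : G ⧸ H) = ((1 : G) : G ⧸ H) := Subsingleton.elim _ _
    have h2 := QuotientGroup.eq.1 this
    simpa using H.inv_mem h2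
  haveI : MulAction.IsPreprimitive G (G ⧸ H) := by
    rw [← MulAction.isCoatom_stabilizer_iff_preprimitive (G := G) (((1 : G) : G ⧸ H)),
      MulAction.stabilizer_quotient]
    exact hmax
  apply MulAction.IwasawaStructure.commutator_le (iwaStruct H A hcomm hA hgen) N
  intro hfp
  apply hne
  rw [eq_bot_iff]
  intro g hg
  rw [Subgroup.mem_bot]
  apply hfaith
  intro q
  exact (Set.eq_univ_iff_forall.1 hfp) q ⟨g, hg⟩

end

end Cfsg.Agent.Lib.Helper11
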