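import Mathlib
import Cfsg.Agent.Lib.Helper11.Words
import Cfsg.Agent.Lib.Helper11.CoxModel

/-!
# Models of `CoxPresented` groups in an arbitrary group, given by the images of the letters
-/

set_option autoImplicit false

namespace Cfsg.Agent.Lib.Helper11

section
variable {α : Type*} [DecidableEq α] {M : Type*} [Group M]

theorem gen_inv (edges : List (α × ℕ × α)) (code : α → ℕ) (nodes : List α) (INV nc : ℕ)
    (extraE : List WExp) (v : ℕ → M)
    (hw : ∀ r ∈ baseWords edges code nodes INV nc extraE [], (r.map v).prod = 1)
    (hv : ∀ l, (l = 0 ∨ nc < l) → v l = 1) (hnc : nc < 32) (hINV : INV < 2 ^ 160)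
    (hINV0 : ∀ l < 32, (l = 0 ∨ nc < l) → invL INV l = 0) :
    ∀ l, v (invL INV l) = (v l)⁻¹ := by
  intro l
  have hz : v 0 = 1 := hv 0 (Or.inl rfl)
  by_cases hl : l = 0 ∨ nc < l
  · have h1 : invL INV l = 0 := by
      by_cases h32 : l < 32
      · exact hINV0 l h32 hl
      · exact invL_big hINV (by omega)
    rw [h1, hz, hv l hl, inv_one]
  · have hl' : 1 ≤ l ∧ l ≤ nc := by omega
    have := hw [l, invL INV l] (by
      simp only [baseWords, List.mem_cons, List.mem_append]
      right; left
      simp only [trivWords, List.mem_map, List.mem_range]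
      exact ⟨l - 1, by omega, by
        have : l - 1 + 1 = l := by omega
        rw [this]⟩)
    simp only [List.map_cons, List.map_nil, List.prod_cons, List.prod_nil, mul_one] at this
    exact eq_inv_of_mul_eq_one_right this

/-- the relators are killed -/
theorem gen_rels (edges : List (α × ℕ × α)) (extra : List (FreeGroup α))
    (LTF : List (FreeGroup α)) (code : α → ℕ) (nodes : List α) (INV nc : ℕ)
    (extraE : List WExp) (v : ℕ → M)
    (hw : ∀ r ∈ baseWords edges code nodes INV nc extraE [], (r.map v).prod = 1)
    (hinv : ∀ l, v (invL INV l) = (v l)⁻¹)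
    (hnodes : ∀ x ∈ Cfsg.Spor.coxNodes edges, x ∈ nodes)
    (hextra : ∀ r ∈ extra, ∃ e ∈ extraE, e.eval (fun l => LTF.getD l 1) = r)
    (hLTF : ∀ l, FreeGroup.lift (fun x => v (code x)) (LTF.getD l 1) = v l) :
    ∀ r ∈ Cfsg.Spor.coxRelators edges ∪ {r | r ∈ extra},
      FreeGroup.lift (fun x => v (code x)) r = 1 := by
  apply lift_rels
  · intro x hx y hy
    apply coxWords_prod_conv edges code nodes v _ x (hnodes x hx) y
      (hnodes y hy)
    intro r hr
    apply hw
    simp only [baseWords, List.mem_cons, List.mem_append]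
    right; right; left; exact hr
  · intro r hr
    obtain ⟨e, he, rfl⟩ := hextra r hr
    rw [WExp.map_eval]
    have : (fun n => FreeGroup.lift (fun x => v (code x)) (LTF.getD n 1)) = v := funext hLTF
    rw [this, ← WExp.prod_letters _ INV hinv]
    apply hw
    simp only [baseWords, List.mem_cons, List.mem_append]
    right; right; right; left
    exact List.mem_map_of_mem he

end

end Cfsg.Agent.Lib.Helper11
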