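import Mathlib
import Cfsg.Prelude.Def_Spor_Fi24
import Cfsg.Agent.Lib.Helper11.P3o.Chain
import Cfsg.Agent.Lib.Helper11.P3a.Upper
import Cfsg.Agent.Lib.Helper11.P3c0.Upper
import Cfsg.Agent.Lib.Helper11.P3c1.Upper
import Cfsg.Agent.Lib.Helper11.P3c2.Upper
import Cfsg.Agent.Lib.Helper11.P3c3.Upper
import Cfsg.Agent.Lib.Helper11.P3c4.Upper
import Cfsg.Agent.Lib.Helper11.Cover

/-!
# The spider relation holds in the presented group Fi24
-/

set_option autoImplicit false

namespace Cfsg.Agent.Lib.Helper11.Fi24S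

open Cfsg.Spor Cfsg.Agent.Lib.Helper11

theorem mono3 {S T : Set (FreeGroup P3.Gen)} (h : S ⊆ T) :
    (Subgroup.closure S).map (PresentedGroup.mk (coxRelators P3.edges ∪ {r | r ∈ P3.extra})) ≤
    (Subgroup.closure T).map (PresentedGroup.mk (coxRelators P3.edges ∪ {r | r ∈ P3.extra})) :=
  Subgroup.map_mono (Subgroup.closure_mono h)

theorem card_le3 : Nat.card P3 ≠ 0 ∧ Nat.card P3 ≤ 9904359628800 := by
  have h5 : Nat.card ((Subgroup.closure (∅ : Set (FreeGroup P3.Gen))).map
      (PresentedGroup.mk (coxRelators P3.edges ∪ {r | r ∈ P3.extra}))) ≠ 0 ∧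
      Nat.card ((Subgroup.closure (∅ : Set (FreeGroup P3.Gen))).map
      (PresentedGroup.mk (coxRelators P3.edges ∪ {r | r ∈ P3.extra}))) ≤ 1 := by simp
  have h4 := card_le_step (mono3 (by simp)) _ _ P3c4.upper h5
  have h3 := card_le_step (mono3 (by intro x hx; simp only [Set.mem_insert_iff, Set.mem_singleton_iff] at hx ⊢; tauto)) _ _ P3c3.upper h4
  have h2 := card_le_step (mono3 (by intro x hx; simp only [Set.mem_insert_iff, Set.mem_singleton_iff] at hx ⊢; tauto)) _ _ P3c2.upper h3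
  have h1 := card_le_step (mono3 (by intro x hx; simp only [Set.mem_insert_iff, Set.mem_singleton_iff] at hx ⊢; tauto)) _ _ P3c1.upper h2
  have h0 := card_le_step (mono3 (by intro x hx; simp only [Set.mem_insert_iff, Set.mem_singleton_iff] at hx ⊢; tauto)) _ _ P3c0.upper h1
  have h := card_le_top _ _ P3a.upper h0
  exact h

/-- the spider word -/
def spE : WExp := .pow (.mul (.mul (.mul (.mul (.mul (.mul (.mul (.mul (.l 6) (.l 5)) (.l 4)) (.l 6)) (.l 7)) (.l 8)) (.l 6)) (.l 9)) (.l 10)) 10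

set_option maxHeartbeats 0 in
theorem spOK : wordId (ntOf P3o.ntl) 15 (spE.letters P3o.INVm) = true := by decide +kernel

theorem spider3 : (PresentedGroup.mk (coxRelators P3.edges ∪ {r | r ∈ P3.extra}))
    ((P3.d * P3.c * P3.b * P3.d * P3.e * P3.f * P3.d * P3.h * P3.i) ^ 10) = 1 := by
  apply inj_of_stabL_bot P3o.psi _ (P3o.order card_le3).2
  rw [map_one]
  have h1 := P3o.psi_eval spE
  have h2 := wordId_spec (ntOf P3o.ntl) 15 (ntOf_ok P3o.ntl _ P3o.netsOK) _ spOK
  exact h1.trans h2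

/-- the inclusion of diagrams -/
def emb3 : P3.Gen → Fi24.Gen
  | .l => .l | .k => .k | .a => .a | .b => .b | .c => .c | .d => .d | .e => .e | .f => .f
  | .h => .h | .i => .i

theorem label_eq3 (x y : P3.Gen) :
    coxLabel Fi24.edges (emb3 x) (emb3 y) = coxLabel P3.edges x y := by
  cases x <;> cases y <;> rfl

theorem rels3 : ∀ r ∈ coxRelators P3.edges ∪ {r | r ∈ P3.extra},
    FreeGroup.lift (fun x => (PresentedGroup.mk (coxRelators Fi24.edges ∪ {r | r ∈ Fi24.extra}))
      (FreeGroup.of (emb3 x))) r = 1 := by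
  apply lift_rels
  · intro x _ y _
    rw [← label_eq3]
    exact cox_rel Fi24.edges Fi24.extra (emb3 x) (emb3 y) (by cases x <;> decide)
      (by cases y <;> decide)
  · intro r hr
    simp only [P3.extra, List.mem_cons, List.mem_nil_iff, or_false] at hr
    subst hr
    simp only [map_mul, map_inv, map_pow, FreeGroup.lift_apply_of, emb3]
    have := extra_rel Fi24.edges Fi24.extra (Fi24.l * (((Fi24.a * Fi24.b * Fi24.c * Fi24.d * Fi24.e * Fi24.f * Fi24.h) ^ 9)⁻¹)) (by simp [Fi24.extra])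
    rw [map_mul, map_inv, map_pow, map_mul, map_mul, map_mul, map_mul, map_mul, map_mul] at this
    exact this

/-- the map to Fi24 -/
noncomputable def hom3 : P3 →* Fi24 := PresentedGroup.toGroup rels3

theorem spider : (PresentedGroup.mk (coxRelators Fi24.edges ∪ {r | r ∈ Fi24.extra}))
    ((Fi24.d * Fi24.c * Fi24.b * Fi24.d * Fi24.e * Fi24.f * Fi24.d * Fi24.h * Fi24.i) ^ 10) = 1 := by
  have h := congrArg hom3 spider3
  rw [map_one] at h
  have e : hom3 ((PresentedGroup.mk (coxRelators P3.edges ∪ {r | r ∈ P3.extra}))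
    ((P3.d * P3.c * P3.b * P3.d * P3.e * P3.f * P3.d * P3.h * P3.i) ^ 10)) =
    FreeGroup.lift (fun x => (PresentedGroup.mk (coxRelators Fi24.edges ∪ {r | r ∈ Fi24.extra}))
      (FreeGroup.of (emb3 x))) ((P3.d * P3.c * P3.b * P3.d * P3.e * P3.f * P3.d * P3.h * P3.i) ^ 10) := rfl
  rw [e] at h
  simp only [map_mul, map_pow, FreeGroup.lift_apply_of, emb3] at h
  rw [map_pow, map_mul, map_mul, map_mul, map_mul, map_mul, map_mul, map_mul, map_mul]
  exact h

end Cfsg.Agent.Lib.Helper11.Fi24S
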