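import Mathlib
import Cfsg.Agent.Lib.Helper11.Rel

/-!
# Relative index bounds, allowing further relators which are known to hold
-/

set_option autoImplicit false

namespace Cfsg.Agent.Lib.Helper11

/-- The relative index bound inside a `CoxPresented` group: only the relators in the letters of the
sub-presentation are used. -/
theorem cox_relIndex_le' {α : Type*} [DecidableEq α] (edges : List (α × ℕ × α))
    (extra : List (FreeGroup α)) (S SB : Set (FreeGroup α))
    (LTF : List (FreeGroup α)) (code : α → ℕ) (nodes : List α) (INV nc : ℕ)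
    (extraE : List WExp) (hE : List (WExp × ℕ)) (t : RT)
    (Fc Sc Nc Cc : ℕ → ℕ) (isH : ℕ → Bool) (gens : List ℕ) (J JB n IL : ℕ)
    (hφ0 : LTF.getD 0 1 = 1) (hlen : LTF.length ≤ 32) (hINV : INV < 2 ^ 160)
    (hinvφ : ∀ l < 32, (PresentedGroup.mk (Cfsg.Spor.coxRelators edges ∪ {r | r ∈ extra}))
        (LTF.getD (invL INV l) 1) =
      ((PresentedGroup.mk (Cfsg.Spor.coxRelators edges ∪ {r | r ∈ extra})) (LTF.getD l 1))⁻¹)
    (hnodes : ∀ x ∈ nodes, x ∈ Cfsg.Spor.coxNodes edges)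
    (hcode : ∀ x ∈ nodes, LTF.getD (code x) 1 = FreeGroup.of x)
    (hextra : ∀ e ∈ extraE, (PresentedGroup.mk (Cfsg.Spor.coxRelators edges ∪ {r | r ∈ extra}))
      (e.eval (fun l => LTF.getD l 1)) = 1)
    (hdef : ∀ p ∈ hE, LTF.getD p.2 1 = p.1.eval (fun l => LTF.getD l 1))
    (hB1 : ∀ l, LTF.getD l 1 ∈ Subgroup.closure SB)
    (hB2 : ∀ s ∈ SB, ∃ l ∈ gens, LTF.getD l 1 = s)
    (hS : ∀ l, isH l = true → LTF.getD l 1 ∈ Subgroup.closure S)
    (ht : t.ok (baseWords edges code nodes INV nc extraE hE) = true)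
    (hn : 0 < n) (hJB : n ≤ 32 * JB) (hN0 : getN Nc 0 = 0) (hg32 : ∀ x ∈ gens, x < 32)
    (hchk : ∀ j < J, blk Fc Sc t.get INV isH j = true)
    (hcl : ∀ jb < JB, cblk Fc Nc Cc (256 * J) n IL gens jb = true) :
    ((Subgroup.closure S).map
      (PresentedGroup.mk (Cfsg.Spor.coxRelators edges ∪ {r | r ∈ extra}))).relIndex
      ((Subgroup.closure SB).map
        (PresentedGroup.mk (Cfsg.Spor.coxRelators edges ∪ {r | r ∈ extra}))) ≠ 0 ∧
    ((Subgroup.closure S).map
      (PresentedGroup.mk (Cfsg.Spor.coxRelators edges ∪ {r | r ∈ extra}))).relIndex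
      ((Subgroup.closure SB).map
        (PresentedGroup.mk (Cfsg.Spor.coxRelators edges ∪ {r | r ∈ extra}))) ≤ n := by
  set mk := PresentedGroup.mk (Cfsg.Spor.coxRelators edges ∪ {r | r ∈ extra}) with hmk
  set φ : ℕ → FreeGroup α := fun l => LTF.getD l 1 with hφ
  set γ : ℕ → PresentedGroup (Cfsg.Spor.coxRelators edges ∪ {r | r ∈ extra}) :=
    fun l => mk (φ l) with hγ
  have γ0 : γ 0 = 1 := by
    show mk (LTF.getD 0 1) = 1
    rw [hφ0, map_one]
  have hbig : ∀ l, 32 ≤ l → γ l = 1 := by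
    intro l hl
    show mk (LTF.getD l 1) = 1
    rw [List.getD_eq_default _ _ (by omega), map_one]
  have hinv : ∀ l, γ (invL INV l) = (γ l)⁻¹ := hinv_all γ INV hINV γ0 hbig hinvφ
  have hBR : ∀ r ∈ baseWords edges code nodes INV nc extraE hE, (r.map γ).prod = 1 := by
    apply baseWords_prod edges code nodes INV nc extraE hE γ hinv
    · intro x hx y hy
      show (mk (LTF.getD (code x) 1) * mk (LTF.getD (code y) 1)) ^ _ = 1
      rw [hcode x hx, hcode y hy]
      exact cox_rel edges extra x y (hnodes x hx) (hnodes y hy)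
    · intro e he
      have h1 := WExp.map_eval mk φ e
      rw [← h1]
      exact hextra e he
    · intro p hp
      have h1 := WExp.map_eval mk φ p.1
      rw [← h1]
      show mk (LTF.getD p.2 1) = _
      rw [hdef p hp]
  have hBeq : (Subgroup.closure SB).map mk = Subgroup.closure {g | ∃ x ∈ gens, g = γ x} := by
    apply le_antisymm
    · rw [MonoidHom.map_closure, Subgroup.closure_le]
      rintro _ ⟨s, hs, rfl⟩
      obtain ⟨l, hl, e⟩ := hB2 s hs
      apply Subgroup.subset_closure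
      exact ⟨l, hl, by show mk s = mk (LTF.getD l 1); rw [e]⟩
    · rw [Subgroup.closure_le]
      rintro _ ⟨x, _, rfl⟩
      exact Subgroup.mem_map_of_mem _ (hB1 x)
  rw [hBeq]
  apply cert_relIndex_le _ γ Fc Sc Nc Cc t.get INV isH gens J JB n IL hn hJB hN0 hg32 γ0
    (fun l _ => hinv l) (fun ρ => (RT.get_good γ _ hBR t ht ρ).1)
    (fun ρ => (RT.get_good γ _ hBR t ht ρ).2) _ _ hchk hcl
  · intro l hl
    exact Subgroup.mem_map_of_mem _ (hS l hl)
  · intro l
    rw [← hBeq]
    exact Subgroup.mem_map_of_mem _ (hB1 l)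

end Cfsg.Agent.Lib.Helper11
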