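import Mathlib
import Cfsg.Prelude.Def_Spor_He
import Cfsg.Agent.Lib.Helper11.P5o.Chain
import Cfsg.Agent.Lib.Helper11.P5a.Upper
import Cfsg.Agent.Lib.Helper11.P5c0.Upper
import Cfsg.Agent.Lib.Helper11.Cover

/-!
# The relation `(c d e)^5 = 1` holds in the presented group He
-/

set_option autoImplicit false

namespace Cfsg.Agent.Lib.Helper11.HeR

open Cfsg.Spor Cfsg.Agent.Lib.Helper11

theorem mono5 {S T : Set (FreeGroup P5.Gen)} (h : S ⊆ T) :
    (Subgroup.closure S).map (PresentedGroup.mk (coxRelators P5.edges ∪ {r | r ∈ P5.extra})) ≤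
    (Subgroup.closure T).map (PresentedGroup.mk (coxRelators P5.edges ∪ {r | r ∈ P5.extra})) :=
  Subgroup.map_mono (Subgroup.closure_mono h)

theorem card_le5 : Nat.card P5 ≠ 0 ∧ Nat.card P5 ≤ 15120 := by
  have h1 : Nat.card ((Subgroup.closure (∅ : Set (FreeGroup P5.Gen))).map
      (PresentedGroup.mk (coxRelators P5.edges ∪ {r | r ∈ P5.extra}))) ≠ 0 ∧
      Nat.card ((Subgroup.closure (∅ : Set (FreeGroup P5.Gen))).map
      (PresentedGroup.mk (coxRelators P5.edges ∪ {r | r ∈ P5.extra}))) ≤ 1 := by simp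
  have h0 := card_le_step (mono5 (by simp)) _ _ P5c0.upper h1
  have h := card_le_top _ _ P5a.upper h0
  exact h

/-- the word -/
def wE : WExp := .pow (.mul (.mul (.l 3) (.l 4)) (.l 5)) 5

set_option maxHeartbeats 0 in
theorem wOK : wordId (ntOf P5o.ntl) 9 (wE.letters P5o.INVm) = true := by decide +kernel

theorem cde5' : (PresentedGroup.mk (coxRelators P5.edges ∪ {r | r ∈ P5.extra}))
    ((P5.c * P5.d * P5.e) ^ 5) = 1 := by
  apply inj_of_stabL_bot P5o.psi _ (P5o.order card_le5).2
  rw [map_one]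
  have h1 := P5o.psi_eval wE
  have h2 := wordId_spec (ntOf P5o.ntl) 9 (ntOf_ok P5o.ntl _ P5o.netsOK) _ wOK
  exact h1.trans h2

/-- the inclusion of diagrams -/
def emb5 : P5.Gen → He.Gen
  | .a => .a | .b => .b | .c => .c | .d => .d | .e => .e

theorem label_eq5 (x y : P5.Gen) :
    coxLabel He.edges (emb5 x) (emb5 y) = coxLabel P5.edges x y := by
  cases x <;> cases y <;> rfl

theorem rels5 : ∀ r ∈ coxRelators P5.edges ∪ {r | r ∈ P5.extra},
    FreeGroup.lift (fun x => (PresentedGroup.mk (coxRelators He.edges ∪ {r | r ∈ He.extra}))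
      (FreeGroup.of (emb5 x))) r = 1 := by
  apply lift_rels
  · intro x _ y _
    rw [← label_eq5]
    exact cox_rel He.edges He.extra (emb5 x) (emb5 y) (by cases x <;> decide)
      (by cases y <;> decide)
  · intro r hr
    simp only [P5.extra, List.mem_cons, List.mem_nil_iff, or_false] at hr
    rcases hr with rfl | rfl
    · simp only [map_mul, map_inv, map_pow, FreeGroup.lift_apply_of, emb5]
      have := extra_rel He.edges He.extra (He.e * ((He.a * He.b * He.c) ^ 3)⁻¹) (by simp [He.extra])
      rw [map_mul, map_inv, map_pow, map_mul, map_mul] at this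
      exact this
    · simp only [map_mul, map_inv, map_pow, FreeGroup.lift_apply_of, emb5]
      have := extra_rel He.edges He.extra (He.a * ((He.c * He.d) ^ 5)⁻¹) (by simp [He.extra])
      rw [map_mul, map_inv, map_pow, map_mul] at this
      exact this

/-- the map to He -/
noncomputable def hom5 : P5 →* He := PresentedGroup.toGroup rels5

theorem cde5 : (PresentedGroup.mk (coxRelators He.edges ∪ {r | r ∈ He.extra}))
    ((He.c * He.d * He.e) ^ 5) = 1 := by
  have h := congrArg hom5 cde5'
  rw [map_one] at h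
  have e : hom5 ((PresentedGroup.mk (coxRelators P5.edges ∪ {r | r ∈ P5.extra}))
    ((P5.c * P5.d * P5.e) ^ 5)) =
    FreeGroup.lift (fun x => (PresentedGroup.mk (coxRelators He.edges ∪ {r | r ∈ He.extra}))
      (FreeGroup.of (emb5 x))) ((P5.c * P5.d * P5.e) ^ 5) := rfl
  rw [e] at h
  simp only [map_mul, map_pow, FreeGroup.lift_apply_of, emb5] at h
  rw [map_pow, map_mul, map_mul]
  exact h

end Cfsg.Agent.Lib.Helper11.HeR
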