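import Mathlib
import Cfsg.Agent.Lib.Helper11.SimpleModel
import Cfsg.Agent.Lib.Helper11.Cover

/-!
# Simplicity from a model: non-cyclic abelian normal subgroups of the point stabiliser
-/

set_option autoImplicit false

namespace Cfsg.Agent.Lib.Helper11

section

variable {G F : Type*} [Group G] [Group F]

/-- simplicity from a model, with an abstract abelian subgroup normalised by the point stabiliser -/
theorem model_simple' (mk : F →* G) (S : Set F) (ψ : G →* Equiv.Perm ℕ)
    (φ : ℕ → F) (INV : ℕ) (NT : ℕ → List (ℕ × ℕ)) (k : ℕ)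
    (hNT : ∀ l, ∀ st ∈ NT l, stOK (2 ^ (2 ^ k)) st = true)
    (hψ : ∀ e : WExp, ψ (mk (e.eval φ)) = wordPerm NT (e.letters INV))
    (hExps : List WExp) (hS1 : ∀ s ∈ S, ∃ e ∈ hExps, e.eval φ = s)
    (hS2 : ∀ e ∈ hExps, e.eval φ ∈ S)
    (gExps : List WExp)
    (hgen : ∀ g : G, g ∈ Subgroup.closure {t | ∃ e ∈ gExps, t = mk (e.eval φ)}) (n r0 : ℕ)
    (hn : 1 < n)
    (hup : ((Subgroup.closure S).map mk).index ≠ 0 ∧ ((Subgroup.closure S).map mk).index ≤ n)
    (hfix0 : fixChk NT (hExps.map (fun e => e.letters INV)) 0 1 = true)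
    (htr : growChk NT (gExps.map (fun e => e.letters INV)) r0 0 0 n = true)
    (hinvn : fixChk NT (gExps.map (fun e => e.letters INV)) 0 n = true)
    (bs : List ℕ) (hbs : stabL ψ bs = ⊥) (hbn : ∀ b ∈ bs, b < n)
    (L : List (ℕ × ℕ × WExp × ℕ))
    (hprim : primChk NT INV (hExps.map (fun e => e.letters INV)) n 1 L = true)
    (hperf : commutator G = ⊤)
    (A : Subgroup G) (hcomm : ∀ a ∈ A, ∀ b ∈ A, a * b = b * a)
    (hA : ∀ h ∈ (Subgroup.closure S).map mk, ∀ a ∈ A, h * a * h⁻¹ ∈ A)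
    (hgenA : Subgroup.normalClosure (A : Set G) = ⊤) :
    IsSimpleGroup G := by
  set H := (Subgroup.closure S).map mk with hH
  have hfaith : ∀ g : G, (∀ p < n, ψ g p = p) → g = 1 := by
    intro g hg
    have : g ∈ stabL ψ bs := fun b hb => hg b (hbn b hb)
    rw [hbs] at this
    exact Subgroup.mem_bot.1 this
  have hψinj : Function.Injective ψ := by
    rw [injective_iff_map_eq_one]
    intro g hg
    apply hfaith
    intro p _
    rw [hg]; rfl
  have hHc : H = Subgroup.closure (mk '' S) := by rw [hH, MonoidHom.map_closure]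
  have hT : ∀ t ∈ mk '' S, ∃ w ∈ hExps.map (fun e => e.letters INV), ψ t = wordPerm NT w := by
    rintro _ ⟨s, hs, rfl⟩
    obtain ⟨e, he, rfl⟩ := hS1 s hs
    exact ⟨_, List.mem_map_of_mem he, hψ e⟩
  have hmv : ∀ w ∈ hExps.map (fun e => e.letters INV), ∃ t ∈ H, ψ t = wordPerm NT w := by
    intro w hw
    obtain ⟨e, he, rfl⟩ := List.mem_map.1 hw
    exact ⟨mk (e.eval φ), Subgroup.mem_map_of_mem _ (Subgroup.subset_closure (hS2 e he)), hψ e⟩
  have hfix : ∀ h ∈ H, ψ h 0 = 0 := by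
    intro h hh
    rw [hHc] at hh
    have := (inv_of_bits ψ (mk '' S) _ NT hNT _ hT 0 1 hfix0 h hh 0).2 ⟨le_refl _, by norm_num⟩
    omega
  have htrans : ∀ p, p < n → ∃ g : G, ψ g 0 = p := by
    intro p hp
    obtain ⟨g, _, e⟩ := reach_of_grow ψ ⊤ _ NT hNT (gExps.map (fun e => e.letters INV)) (by
      intro w hw
      obtain ⟨e, _, rfl⟩ := List.mem_map.1 hw
      exact ⟨mk (e.eval φ), Subgroup.mem_top _, hψ e⟩) 0 r0 0 n htr p (Nat.zero_le _) (by omega)
    exact ⟨g, e⟩
  obtain ⟨-, hinj⟩ := model_index H ψ n hup hfix htrans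
  have hlt : ∀ g : G, ψ g 0 < n := by
    intro g
    have := (inv_of_bits ψ {t | ∃ e ∈ gExps, t = mk (e.eval φ)} _ NT hNT
      (gExps.map (fun e => e.letters INV)) (by
        rintro _ ⟨e, he, rfl⟩
        exact ⟨_, List.mem_map_of_mem he, hψ e⟩) 0 n hinvn g (hgen g) 0).2 ⟨le_refl _, by omega⟩
    omega
  have hcases := primChk_spec mk H ψ φ INV NT _ hNT hψ _ hmv n hfix hinj hlt L 1 hprim
  have hmax : IsCoatom H := by
    apply coatom_of_model H ψ hfix hinj
    · obtain ⟨g, hg⟩ := htrans 1 hn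
      exact ⟨g, by omega⟩
    · intro K hK k hk h0
      exact hcases K hK k hk h0
  have hnt : Nontrivial G := by
    obtain ⟨g, hg⟩ := htrans 1 hn
    refine ⟨g, 1, ?_⟩
    rintro rfl
    simp at hg
  apply simple_of_iwasawa H A hnt hperf hmax _ hcomm hA hgenA
  · -- faithful
    intro g hg
    apply hfaith
    intro p hp
    obtain ⟨x, hx⟩ := htrans p hp
    have h1 := hg (x : G ⧸ H)
    have h2 := cosetPt_smul H ψ hfix g (x : G ⧸ H)
    rw [h1, cosetPt_mk, hx] at h2
    exact h2.symm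

theorem conj_mem_closure (s : G) (Z : Set G) (h : ∀ z ∈ Z, s * z * s⁻¹ ∈ Subgroup.closure Z) :
    ∀ a ∈ Subgroup.closure Z, s * a * s⁻¹ ∈ Subgroup.closure Z := by
  intro a ha
  induction ha using Subgroup.closure_induction with
  | mem z hz => exact h z hz
  | one => simp
  | mul x y _ _ hx hy =>
    have e : s * (x * y) * s⁻¹ = (s * x * s⁻¹) * (s * y * s⁻¹) := by group
    rw [e]; exact Subgroup.mul_mem _ hx hy
  | inv x _ hx =>
    have e : s * x⁻¹ * s⁻¹ = (s * x * s⁻¹)⁻¹ := by group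
    rw [e]; exact Subgroup.inv_mem _ hx

theorem conj_closure_of_closure (T Z : Set G)
    (h : ∀ s ∈ T, ∀ z ∈ Z, s * z * s⁻¹ ∈ Subgroup.closure Z ∧ s⁻¹ * z * s ∈ Subgroup.closure Z) :
    ∀ x ∈ Subgroup.closure T, ∀ a ∈ Subgroup.closure Z, x * a * x⁻¹ ∈ Subgroup.closure Z := by
  have key : ∀ x ∈ Subgroup.closure T, (∀ a ∈ Subgroup.closure Z, x * a * x⁻¹ ∈ Subgroup.closure Z) ∧
      (∀ a ∈ Subgroup.closure Z, x⁻¹ * a * x ∈ Subgroup.closure Z) := by
    intro x hx
    induction hx using Subgroup.closure_induction with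
    | mem s hs =>
      refine ⟨conj_mem_closure s Z (fun z hz => (h s hs z hz).1), ?_⟩
      intro a ha
      have := conj_mem_closure s⁻¹ Z (fun z hz => by
        have := (h s hs z hz).2
        simpa using this) a ha
      simpa using this
    | one => simp
    | mul x y _ _ hx hy =>
      constructor
      · intro a ha
        have e : x * y * a * (x * y)⁻¹ = x * (y * a * y⁻¹) * x⁻¹ := by group
        rw [e]; exact hx.1 _ (hy.1 a ha)
      · intro a ha
        have e : (x * y)⁻¹ * a * (x * y) = y⁻¹ * (x⁻¹ * a * x) * y := by group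
        rw [e]; exact hy.2 _ (hx.2 a ha)
    | inv x _ hx =>
      refine ⟨?_, ?_⟩
      · intro a ha
        simpa using hx.2 a ha
      · intro a ha
        simpa using hx.1 a ha
  intro x hx a ha
  exact (key x hx).1 a ha

theorem comm_closure (Z : Set G) (h : ∀ x ∈ Z, ∀ y ∈ Z, x * y = y * x) :
    ∀ a ∈ Subgroup.closure Z, ∀ b ∈ Subgroup.closure Z, a * b = b * a := by
  have h1 : Subgroup.closure Z ≤ Subgroup.centralizer Z := by
    rw [Subgroup.closure_le]
    intro z hz
    rw [SetLike.mem_coe, Subgroup.mem_centralizer_iff]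
    intro y hy
    exact h y hy z hz
  have h2 : Subgroup.closure Z ≤ Subgroup.centralizer (Subgroup.closure Z : Set G) := by
    rw [Subgroup.closure_le]
    intro z hz
    rw [SetLike.mem_coe, Subgroup.mem_centralizer_iff]
    intro y hy
    exact ((Subgroup.mem_centralizer_iff.1 (h1 hy)) z hz).symm
  intro a ha b hb
  exact ((Subgroup.mem_centralizer_iff.1 (h2 ha)) b hb).symm

/-- check: every generator word conjugates every `z` (and so does its inverse) to one of the
candidates -/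
noncomputable def normChkL (NT : ℕ → List (ℕ × ℕ)) (k : ℕ) (hm zs cs : List (List ℕ)) : Bool :=
  hm.all (fun s => zs.all (fun z => cs.any (fun z' => wordEq NT k (s ++ z) (z' ++ s)) &&
    cs.any (fun z' => wordEq NT k (z ++ s) (s ++ z'))))

theorem conj_of_normChkL (mk : F →* G) (ψ : G →* Equiv.Perm ℕ)
    (φ : ℕ → F) (INV : ℕ) (NT : ℕ → List (ℕ × ℕ)) (k : ℕ)
    (hNT : ∀ l, ∀ st ∈ NT l, stOK (2 ^ (2 ^ k)) st = true)
    (hψ : ∀ e : WExp, ψ (mk (e.eval φ)) = wordPerm NT (e.letters INV))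
    (hψinj : Function.Injective ψ) (hExps zExps cExps : List WExp)
    (h : normChkL NT k (hExps.map (fun e => e.letters INV)) (zExps.map (fun e => e.letters INV))
      (cExps.map (fun e => e.letters INV)) = true)
    (B : Subgroup G) (hc : ∀ c ∈ cExps, mk (c.eval φ) ∈ B) :
    ∀ e ∈ hExps, ∀ z ∈ zExps, mk (e.eval φ) * mk (z.eval φ) * (mk (e.eval φ))⁻¹ ∈ B ∧
      (mk (e.eval φ))⁻¹ * mk (z.eval φ) * mk (e.eval φ) ∈ B := by
  intro e he z hz
  unfold normChkL at h
  rw [List.all_eq_true] at h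
  have h1 := h _ (List.mem_map_of_mem he)
  rw [List.all_eq_true] at h1
  have h2 := h1 _ (List.mem_map_of_mem hz)
  rw [Bool.and_eq_true, List.any_eq_true, List.any_eq_true] at h2
  obtain ⟨⟨w1, hw1, e1⟩, ⟨w2, hw2, e2⟩⟩ := h2
  obtain ⟨c1, hc1, rfl⟩ := List.mem_map.1 hw1
  obtain ⟨c2, hc2, rfl⟩ := List.mem_map.1 hw2
  constructor
  · have := wordEq_spec NT k hNT _ _ e1
    rw [wordPerm_append, wordPerm_append, ← hψ, ← hψ, ← hψ, ← map_mul ψ, ← map_mul ψ] at this
    have h3 := hψinj this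
    rw [h3]
    simpa using hc c1 hc1
  · have := wordEq_spec NT k hNT _ _ e2
    rw [wordPerm_append, wordPerm_append, ← hψ, ← hψ, ← hψ, ← map_mul ψ, ← map_mul ψ] at this
    have h3 := hψinj this
    rw [mul_assoc, h3]
    simpa using hc c2 hc2

end

end Cfsg.Agent.Lib.Helper11
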