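import Mathlib
import Cfsg.Agent.Lib.Helper11.SimpleModel
import Cfsg.Agent.Lib.Helper11.Derived

/-!
# Minimal normal subgroups from a verified permutation model
-/

set_option autoImplicit false

namespace Cfsg.Agent.Lib.Helper11

section

variable {G F : Type*} [Group G] [Group F]

/-- every non-trivial normal subgroup contains the commutator subgroup -/
theorem model_minimal (mk : F →* G) (S : Set F) (ψ : G →* Equiv.Perm ℕ)
    (φ : ℕ → F) (INV : ℕ) (NT : ℕ → List (ℕ × ℕ)) (k : ℕ)
    (hNT : ∀ l, ∀ st ∈ NT l, stOK (2 ^ (2 ^ k)) st = true)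
    (hψ : ∀ e : WExp, ψ (mk (e.eval φ)) = wordPerm NT (e.letters INV))
    (hExps : List WExp) (hS1 : ∀ s ∈ S, ∃ e ∈ hExps, e.eval φ = s)
    (hS2 : ∀ e ∈ hExps, e.eval φ ∈ S)
    (gExps : List WExp)
    (hgen : ∀ g : G, g ∈ Subgroup.closure {t | ∃ e ∈ gExps, t = mk (e.eval φ)}) (n r0 : ℕ)
    (hn : 1 < n)
    (hup : ((Subgroup.closure S).map mk).index ≠ 0 ∧ ((Subgroup.closure S).map mk).index ≤ n)
    (hfix0 : fixChk NT (hExps.map (fun e => e.letters INV)) 0 1 = true)
    (htr : growChk NT (gExps.map (fun e => e.letters INV)) r0 0 0 n = true)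
    (hinvn : fixChk NT (gExps.map (fun e => e.letters INV)) 0 n = true)
    (bs : List ℕ) (hbs : stabL ψ bs = ⊥) (hbn : ∀ b ∈ bs, b < n)
    (L : List (ℕ × ℕ × WExp × ℕ))
    (hprim : primChk NT INV (hExps.map (fun e => e.letters INV)) n 1 L = true)
    (tE : WExp)
    (hnorm : normChk NT k (hExps.map (fun e => e.letters INV)) (tE.letters INV)
      ((WExp.inv tE).letters INV) = true)
    (hgenA : Subgroup.normalClosure {mk (tE.eval φ)} = ⊤) :
    ∀ N : Subgroup G, N.Normal → N ≠ ⊥ → commutator G ≤ N := by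
  set H := (Subgroup.closure S).map mk with hH
  have hfaith : ∀ g : G, (∀ p < n, ψ g p = p) → g = 1 := by
    intro g hg
    have : g ∈ stabL ψ bs := fun b hb => hg b (hbn b hb)
    rw [hbs] at this
    exact Subgroup.mem_bot.1 this
  have hψinj : Function.Injective ψ := by
    rw [injective_iff_map_eq_one]
    intro g hg
    apply hfaith
    intro p _
    rw [hg]; rfl
  have hHc : H = Subgroup.closure (mk '' S) := by rw [hH, MonoidHom.map_closure]
  have hT : ∀ t ∈ mk '' S, ∃ w ∈ hExps.map (fun e => e.letters INV), ψ t = wordPerm NT w := by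
    rintro _ ⟨s, hs, rfl⟩
    obtain ⟨e, he, rfl⟩ := hS1 s hs
    exact ⟨_, List.mem_map_of_mem he, hψ e⟩
  have hmv : ∀ w ∈ hExps.map (fun e => e.letters INV), ∃ t ∈ H, ψ t = wordPerm NT w := by
    intro w hw
    obtain ⟨e, he, rfl⟩ := List.mem_map.1 hw
    exact ⟨mk (e.eval φ), Subgroup.mem_map_of_mem _ (Subgroup.subset_closure (hS2 e he)), hψ e⟩
  have hfix : ∀ h ∈ H, ψ h 0 = 0 := by
    intro h hh
    rw [hHc] at hh
    have := (inv_of_bits ψ (mk '' S) _ NT hNT _ hT 0 1 hfix0 h hh 0).2 ⟨le_refl _, by norm_num⟩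
    omega
  have htrans : ∀ p, p < n → ∃ g : G, ψ g 0 = p := by
    intro p hp
    obtain ⟨g, _, e⟩ := reach_of_grow ψ ⊤ _ NT hNT (gExps.map (fun e => e.letters INV)) (by
      intro w hw
      obtain ⟨e, _, rfl⟩ := List.mem_map.1 hw
      exact ⟨mk (e.eval φ), Subgroup.mem_top _, hψ e⟩) 0 r0 0 n htr p (Nat.zero_le _) (by omega)
    exact ⟨g, e⟩
  obtain ⟨-, hinj⟩ := model_index H ψ n hup hfix htrans
  have hlt : ∀ g : G, ψ g 0 < n := by
    intro g
    have := (inv_of_bits ψ {t | ∃ e ∈ gExps, t = mk (e.eval φ)} _ NT hNT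
      (gExps.map (fun e => e.letters INV)) (by
        rintro _ ⟨e, he, rfl⟩
        exact ⟨_, List.mem_map_of_mem he, hψ e⟩) 0 n hinvn g (hgen g) 0).2 ⟨le_refl _, by omega⟩
    omega
  have hcases := primChk_spec mk H ψ φ INV NT _ hNT hψ _ hmv n hfix hinj hlt L 1 hprim
  have hmax : IsCoatom H := by
    apply coatom_of_model H ψ hfix hinj
    · obtain ⟨g, hg⟩ := htrans 1 hn
      exact ⟨g, by omega⟩
    · intro K hK k hk h0
      exact hcases K hK k hk h0
  set t := mk (tE.eval φ) with ht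
  apply commutator_le_of_iwasawa H (Subgroup.zpowers t) hmax
  · -- faithful
    intro g hg
    apply hfaith
    intro p hp
    obtain ⟨x, hx⟩ := htrans p hp
    have h1 := hg (x : G ⧸ H)
    have h2 := cosetPt_smul H ψ hfix g (x : G ⧸ H)
    rw [h1, cosetPt_mk, hx] at h2
    exact h2.symm
  · intro a ha b hb
    obtain ⟨i, rfl⟩ := Subgroup.mem_zpowers_iff.1 ha
    obtain ⟨j, rfl⟩ := Subgroup.mem_zpowers_iff.1 hb
    rw [← zpow_add, ← zpow_add, add_comm]
  · rw [hHc]
    apply conj_zpowers_of_closure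
    rintro _ ⟨s, hs, rfl⟩
    obtain ⟨e, he, rfl⟩ := hS1 s hs
    unfold normChk at hnorm
    rw [List.all_eq_true] at hnorm
    have h1 := hnorm _ (List.mem_map_of_mem he)
    rw [Bool.or_eq_true] at h1
    rcases h1 with h1 | h1
    · left
      apply hψinj
      have := wordEq_spec NT k hNT _ _ h1
      rw [wordPerm_append, wordPerm_append, ← hψ, ← hψ] at this
      rw [map_mul, map_mul]; exact this
    · right
      apply hψinj
      have := wordEq_spec NT k hNT _ _ h1
      rw [wordPerm_append, wordPerm_append, ← hψ, ← hψ, ← hψ] at this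
      rw [map_mul, map_mul]
      simpa [WExp.eval] using this
  · rw [eq_top_iff, ← hgenA]
    apply Subgroup.normalClosure_mono
    intro x hx
    rw [Set.mem_singleton_iff] at hx
    rw [hx]
    exact Subgroup.mem_zpowers t

end

end Cfsg.Agent.Lib.Helper11
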