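import Cfsg.Agent.Lib.Helper11.P6o.Chain
import Cfsg.Agent.Lib.Helper11.P6o.Prim
import Cfsg.Agent.Lib.Helper11.P6a.Upper
import Cfsg.Agent.Lib.Helper11.P6c0.Upper
import Cfsg.Agent.Lib.Helper11.CoxSimple
import Cfsg.Agent.Lib.Helper11.Minimal

/-!
# The auxiliary group `P6` (it is `L₃(7):2`): order and minimal normal subgroup
-/

set_option autoImplicit false

namespace Cfsg.Agent.Lib.Helper11.P6M

open Cfsg.Agent.Lib.Helper11 Cfsg.Spor Cfsg.Agent.Lib.Helper11.P6

theorem mono {S T : Set (FreeGroup Gen)} (h : S ⊆ T) :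
    (Subgroup.closure S).map (PresentedGroup.mk (coxRelators edges ∪ {r | r ∈ extra})) ≤ (Subgroup.closure T).map (PresentedGroup.mk (coxRelators edges ∪ {r | r ∈ extra})) :=
  Subgroup.map_mono (Subgroup.closure_mono h)

theorem card_le : Nat.card Cfsg.Agent.Lib.Helper11.P6 ≠ 0 ∧ Nat.card Cfsg.Agent.Lib.Helper11.P6 ≤ 3753792 := by
  have h1 : Nat.card ((Subgroup.closure (∅ : Set (FreeGroup Gen))).map (PresentedGroup.mk (coxRelators edges ∪ {r | r ∈ extra}))) ≠ 0 ∧
      Nat.card ((Subgroup.closure (∅ : Set (FreeGroup Gen))).map (PresentedGroup.mk (coxRelators edges ∪ {r | r ∈ extra}))) ≤ 1 := by simp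
  have h0 := card_le_step (mono (by simp)) _ _ P6c0.upper h1
  have h := card_le_top _ _ P6a.upper h0
  exact h

theorem genTop : Subgroup.closure (Set.range (fun x : Gen => (PresentedGroup.mk (coxRelators edges ∪ {r | r ∈ extra})) (FreeGroup.of x))) = ⊤ :=
  PresentedGroup.closure_range_of _

theorem ncl : Subgroup.normalClosure {(PresentedGroup.mk (coxRelators edges ∪ {r | r ∈ extra})) (FreeGroup.of Gen.a)} = ⊤ := by
  apply normalClosure_top_of_mem _ _ genTop
  intro N hN ha
  have q1 : ∀ x, x ∈ N → QuotientGroup.mk' N x = 1 := fun x hx => (QuotientGroup.eq_one_iff x).2 hx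
  have q2 : ∀ x, QuotientGroup.mk' N x = 1 → x ∈ N := fun x hx => (QuotientGroup.eq_one_iff x).1 hx
  have hb := cox_mem_step edges extra N .a .b 1 (by decide) (by decide) (by decide) ha
  have hc := cox_mem_step edges extra N .b .c 1 (by decide) (by decide) (by decide) hb
  have r1 := congrArg (QuotientGroup.mk' N) (extra_rel edges extra ((a * f) * (((c * d) ^ 4)⁻¹)) (by simp [extra]))
  simp only [map_pow, map_mul, map_inv, map_one] at r1
  have hf : (PresentedGroup.mk (coxRelators edges ∪ {r | r ∈ extra})) (FreeGroup.of Gen.f) ∈ N := by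
    apply q2
    rw [q1 _ ha, q1 ((PresentedGroup.mk (coxRelators edges ∪ {r | r ∈ extra})) c) hc, one_mul, one_mul] at r1
    have h2 : (QuotientGroup.mk' N ((PresentedGroup.mk (coxRelators edges ∪ {r | r ∈ extra})) d)) ^ 4 = 1 := by
      have h3 : (QuotientGroup.mk' N ((PresentedGroup.mk (coxRelators edges ∪ {r | r ∈ extra})) d)) ^ 2 = 1 := by
        rw [pow_two, ← map_mul]
        have := cox_sq edges extra .d (by decide)
        rw [this, map_one]
      rw [show 4 = 2 * 2 from rfl, pow_mul, h3, one_pow]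
    rw [h2, inv_one, mul_one] at r1
    exact r1
  have he := cox_mem_step edges extra N .f .e 1 (by decide) (by decide) (by decide) hf
  have hd := cox_mem_step edges extra N .e .d 1 (by decide) (by decide) (by decide) he
  rintro _ ⟨x, rfl⟩
  cases x <;> assumption

theorem card_eq : Nat.card Cfsg.Agent.Lib.Helper11.P6 = 3753792 := (P6o.order card_le).1

theorem hmin : ∀ N : Subgroup Cfsg.Agent.Lib.Helper11.P6, N.Normal → N ≠ ⊥ →
    commutator Cfsg.Agent.Lib.Helper11.P6 ≤ N :=
  model_minimal (PresentedGroup.mk (coxRelators edges ∪ {r | r ∈ extra})) _ P6o.psi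
    (fun l => P6o.LTFm.getD l 1) P6o.INVm (ntOf P6o.ntl) 13 (ntOf_ok P6o.ntl _ P6o.netsOK)
    P6o.psi_eval P6o.hExps P6o.hS1 P6o.hS2 P6o.gExps P6o.hgen 5586 _ (by norm_num)
    P6a.upper P6o.hfix0 P6o.htr P6o.invnOK _ (P6o.order card_le).2 P6o.hbn P6o.primL P6o.primOK
    P6o.tE P6o.normOK ncl

theorem sgn_rels : ∀ r ∈ coxRelators edges ∪ {r | r ∈ extra},
    FreeGroup.lift (fun _ : Gen => (-1 : ℤˣ)) r = 1 := by
  apply lift_rels
  · intro x _ y _
    simp
  · intro r hr
    simp only [extra, List.mem_cons, List.mem_nil_iff, or_false] at hr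
    rcases hr with rfl
    simp only [map_mul, map_inv, map_pow, FreeGroup.lift_apply_of]
    decide

/-- the sign -/
noncomputable def sgn : Cfsg.Agent.Lib.Helper11.P6 →* ℤˣ := PresentedGroup.toGroup sgn_rels

theorem comm_ne_top : commutator Cfsg.Agent.Lib.Helper11.P6 ≠ ⊤ := by
  intro h
  have h1 : Abelianization.of ((PresentedGroup.mk (coxRelators edges ∪ {r | r ∈ extra})) (FreeGroup.of Gen.a)) = 1 := by
    rw [← MonoidHom.mem_ker, Abelianization.ker_of, h]
    exact Subgroup.mem_top _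
  have h2 : Abelianization.lift sgn (Abelianization.of ((PresentedGroup.mk (coxRelators edges ∪ {r | r ∈ extra})) (FreeGroup.of Gen.a))) =
      sgn ((PresentedGroup.mk (coxRelators edges ∪ {r | r ∈ extra})) (FreeGroup.of Gen.a)) := Abelianization.lift_apply_of _ _
  have h3 : sgn ((PresentedGroup.mk (coxRelators edges ∪ {r | r ∈ extra})) (FreeGroup.of Gen.a)) = -1 :=
    PresentedGroup.toGroup.of sgn_rels
  rw [h1, map_one, h3] at h2
  exact absurd h2 (by decide)

end Cfsg.Agent.Lib.Helper11.P6M
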