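import Mathlib

/-!
# Packed matrices over `ZMod p`: a whole matrix is one natural number

Entry `(i, j)` of an `n × n` matrix is digit `i * (n + 1) + j` in base `2 ^ w`.  A product costs `n`
steps of arithmetic on big numbers, the reduction modulo `p` is done on all digits at once.
-/

set_option autoImplicit false

namespace Cfsg.Agent.Lib.Helper11.PM2

/-- digit `j` of `x` in base `B` -/
def dg (B x j : ℕ) : ℕ := x / B ^ j % B

theorem dg_zero (B x : ℕ) : dg B x 0 = x % B := by simp [dg]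

theorem dg_succ (B x j : ℕ) : dg B x (j + 1) = dg B (x / B) j := by
  unfold dg
  rw [Nat.div_div_eq_div_mul, pow_succ, Nat.mul_comm]

theorem dg_zero_left (B j : ℕ) : dg B 0 j = 0 := by simp [dg]

theorem dg_lt (B x j : ℕ) (hB : 0 < B) : dg B x j < B := Nat.mod_lt _ hB

theorem dg_eq_zero_of_lt (B x j : ℕ) (h : x < B ^ j) : dg B x j = 0 := by
  unfold dg
  rw [Nat.div_eq_of_lt h, Nat.zero_mod]

theorem dg_add (B : ℕ) (hB : 0 < B) : ∀ (j x y : ℕ), (∀ j, dg B x j + dg B y j < B) →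
    dg B (x + y) j = dg B x j + dg B y j := by
  intro j
  induction j with
  | zero =>
    intro x y h
    have h0 := h 0
    simp only [dg_zero] at *
    rw [Nat.add_mod, Nat.mod_eq_of_lt h0]
  | succ j ih =>
    intro x y h
    have h0 := h 0
    simp only [dg_zero] at h0
    rw [dg_succ, dg_succ, dg_succ]
    have e : (x + y) / B = x / B + y / B := by
      rw [Nat.add_div hB, if_neg (by omega), add_zero]
    rw [e]
    apply ih
    intro k
    have := h (k + 1)
    rwa [dg_succ, dg_succ] at this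

theorem dg_mul (B : ℕ) (hB : 0 < B) (c : ℕ) : ∀ (j x : ℕ), (∀ j, c * dg B x j < B) →
    dg B (c * x) j = c * dg B x j := by
  intro j
  induction j with
  | zero =>
    intro x h
    have h0 := h 0
    simp only [dg_zero] at *
    have e : c * x = c * (x % B) + B * (c * (x / B)) := by
      conv_lhs => rw [← Nat.div_add_mod x B]
      ring
    rw [e, Nat.add_mul_mod_self_left, Nat.mod_eq_of_lt h0]
  | succ j ih =>
    intro x h
    have h0 := h 0
    simp only [dg_zero] at h0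
    rw [dg_succ, dg_succ]
    have e : c * x = c * (x % B) + B * (c * (x / B)) := by
      conv_lhs => rw [← Nat.div_add_mod x B]
      ring
    have e2 : c * x / B = c * (x / B) := by
      rw [e, Nat.add_mul_div_left _ _ hB, Nat.div_eq_of_lt h0, zero_add]
    rw [e2]
    apply ih
    intro k
    have := h (k + 1)
    rwa [dg_succ] at this

theorem dg_sum (B : ℕ) (hB : 0 < B) (f g : ℕ → ℕ) : ∀ (n : ℕ),
    (∀ j, ∑ k ∈ Finset.range n, f k * dg B (g k) j < B) →
    ∀ j, dg B (∑ k ∈ Finset.range n, f k * g k) j = ∑ k ∈ Finset.range n, f k * dg B (g k) j := by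
  intro n
  induction n with
  | zero => intro _ j; simp [dg]
  | succ n ih =>
    intro h j
    have h' : ∀ j, ∑ k ∈ Finset.range n, f k * dg B (g k) j < B := fun j =>
      lt_of_le_of_lt (by rw [Finset.sum_range_succ]; exact Nat.le_add_right _ _) (h j)
    have hm : ∀ j, f n * dg B (g n) j < B := fun j =>
      lt_of_le_of_lt (by rw [Finset.sum_range_succ]; exact Nat.le_add_left _ _) (h j)
    rw [Finset.sum_range_succ, Finset.sum_range_succ]
    rw [dg_add B hB j _ _ ?_, ih h' j, dg_mul B hB (f n) j _ hm]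
    intro j
    rw [ih h' j, dg_mul B hB (f n) j _ hm, ← Finset.sum_range_succ]
    exact h j

theorem dg_pow (B : ℕ) (hB : 1 < B) (i j : ℕ) : dg B (B ^ i) j = if i = j then 1 else 0 := by
  unfold dg
  by_cases h : j ≤ i
  · rw [Nat.pow_div h (by omega)]
    by_cases e : i = j
    · subst e; simp [Nat.mod_eq_of_lt hB]
    · rw [if_neg e]
      have : B ∣ B ^ (i - j) := dvd_pow_self _ (by omega)
      exact Nat.mod_eq_zero_of_dvd this
  · have hlt : B ^ i < B ^ j := Nat.pow_lt_pow_right hB (by omega)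
    rw [Nat.div_eq_of_lt hlt, if_neg (by omega), Nat.zero_mod]

/-- the number with `N` digits `1` -/
def rep (B : ℕ) : ℕ → ℕ
  | 0 => 0
  | k + 1 => 1 + B * rep B k

theorem dg_rep (B : ℕ) (hB : 1 < B) : ∀ (N j : ℕ), dg B (rep B N) j = if j < N then 1 else 0 := by
  intro N
  induction N with
  | zero => intro j; simp [rep, dg_zero_left]
  | succ N ih =>
    intro j
    cases j with
    | zero =>
      rw [dg_zero, rep, Nat.add_mul_mod_self_left, Nat.mod_eq_of_lt hB, if_pos (by omega)]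
    | succ j =>
      rw [dg_succ, rep, Nat.add_mul_div_left _ _ (by omega), Nat.div_eq_of_lt hB, zero_add, ih]
      by_cases h : j < N
      · rw [if_pos h, if_pos (by omega)]
      · rw [if_neg h, if_neg (by omega)]

theorem rep_lt (B : ℕ) (hB : 1 < B) : ∀ N, rep B N < B ^ N := by
  intro N
  induction N with
  | zero => simp [rep]
  | succ N ih =>
    rw [rep, pow_succ']
    have : B * (rep B N + 1) ≤ B * B ^ N := Nat.mul_le_mul_left _ ih
    rw [Nat.mul_add, Nat.mul_one] at this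
    omega

theorem dg_mul_rep (B c : ℕ) (hB : 1 < B) (hc : c < B) (N j : ℕ) :
    dg B (c * rep B N) j = if j < N then c else 0 := by
  rw [dg_mul B (by omega) c j _ (fun j => by
    rw [dg_rep B hB]
    split_ifs
    · rw [mul_one]; exact hc
    · rw [mul_zero]; omega), dg_rep B hB]
  split_ifs <;> simp

theorem dg_land (a x y j : ℕ) : dg (2 ^ a) (x &&& y) j = dg (2 ^ a) x j &&& dg (2 ^ a) y j := by
  unfold dg
  rw [← pow_mul, Nat.and_div_two_pow, Nat.and_mod_two_pow]

/-- two levels of digits -/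
theorem dg_dg (B n X i j : ℕ) (hj : j ≤ n) :
    dg B (dg (B ^ (n + 1)) X i) j = dg B X (i * (n + 1) + j) := by
  unfold dg
  have e : X / B ^ (i * (n + 1) + j) = X / (B ^ (n + 1)) ^ i / B ^ j := by
    rw [Nat.div_div_eq_div_mul, pow_add, ← pow_mul, mul_comm i]
  rw [e]
  generalize X / (B ^ (n + 1)) ^ i = a
  have hZ : B ^ (n + 1) = B ^ j * B ^ (n + 1 - j) := by
    rw [← pow_add]; congr 1; omega
  have hd : B ∣ B ^ (n + 1 - j) := dvd_pow_self _ (by omega)
  rw [hZ, Nat.mod_mul_right_div_self, Nat.mod_mod_of_dvd _ hd]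

/-- a digit of the shifted number -/
theorem dg_shift (B n X i t : ℕ) :
    dg (B ^ (n + 1)) (X / B ^ t) i % B = dg B X (i * (n + 1) + t) := by
  unfold dg
  rw [Nat.mod_mod_of_dvd _ (dvd_pow_self _ (by omega)), Nat.div_div_eq_div_mul, ← pow_mul,
    ← pow_add]
  congr 3
  ring

theorem sum_le_mul (n : ℕ) (f : ℕ → ℕ) (c : ℕ) (h : ∀ t < n, f t ≤ c) :
    ∑ t ∈ Finset.range n, f t ≤ n * c := by
  have := Finset.sum_le_card_nsmul (Finset.range n) f c (fun x hx => h x (Finset.mem_range.1 hx))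
  rwa [Finset.card_range, smul_eq_mul] at this

/-- the parameters of a packing -/
structure Par where
  /-- width of a digit -/
  w : ℕ
  /-- size of the matrices -/
  n : ℕ
  /-- reduced digits are below `2 ^ e` -/
  e : ℕ
  /-- shift of the reciprocal -/
  s : ℕ
  /-- the reciprocal of `p` -/
  m : ℕ
  /-- `2 ^ e - p` -/
  c : ℕ
  /-- the modulus -/
  p : ℕ

namespace Par

variable (q : Par)

/-- the base -/
def b : ℕ := 2 ^ q.w
/-- the base of the rows -/
def Z : ℕ := q.b ^ (q.n + 1)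
/-- bound of the reduced digits -/
def c0 : ℕ := 2 ^ q.e - 1
/-- bound of the digits of a product -/
def D : ℕ := q.n * (q.c0 * q.c0)
/-- mask of a column -/
def mz : ℕ := (q.b - 1) * rep q.Z q.n
/-- mask of the reduced matrices -/
def mg : ℕ := (q.c0 * rep q.b q.n) * rep q.Z q.n
/-- mask of the quotients -/
def mq : ℕ := (2 ^ (q.w - q.s) - 1) * rep q.b ((q.n + 1) * q.n)

/-- the numerical conditions -/
structure Good : Prop where
  hw : 0 < q.w
  hs : q.s ≤ q.w
  he : q.e ≤ q.w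
  h1 : q.m * q.D < q.b
  h2 : q.D + q.c * (q.m * q.D / 2 ^ q.s) < q.b
  h3 : ∀ d ≤ q.D, ((d + q.c * (q.m * d / 2 ^ q.s)) % 2 ^ q.e) % q.p = d % q.p
  h4 : q.n * q.c0 < q.b

theorem Z_eq : q.Z = 2 ^ (q.w * (q.n + 1)) := by
  unfold Z b; rw [← pow_mul]

variable {q}

theorem Good.hb (hq : q.Good) : 1 < q.b := Nat.one_lt_two_pow (by have := hq.hw; omega)

theorem Good.hZ (hq : q.Good) : 1 < q.Z := Nat.one_lt_pow (by omega) hq.hb

theorem Good.hbZ (hq : q.Good) : q.b ≤ q.Z := by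
  unfold Z
  calc q.b = q.b ^ 1 := (pow_one _).symm
    _ ≤ q.b ^ (q.n + 1) := Nat.pow_le_pow_right (by have := hq.hb; omega) (by omega)

theorem Good.hc0 (hq : q.Good) : q.c0 < q.b := by
  have h1 : 2 ^ q.e ≤ 2 ^ q.w := Nat.pow_le_pow_right (by norm_num) hq.he
  have h2 : 0 < 2 ^ q.e := by positivity
  unfold c0 b
  omega

theorem Good.hD (hq : q.Good) : q.D < q.b := lt_of_le_of_lt (Nat.le_add_right _ _) hq.h2

end Par

/-- the entries of a packed matrix -/
def ent (q : Par) (X i j : ℕ) : ℕ := dg q.b X (i * (q.n + 1) + j)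

theorem ent_eq (q : Par) (X i j : ℕ) (hj : j ≤ q.n) : ent q X i j = dg q.b (dg q.Z X i) j :=
  (dg_dg q.b q.n X i j hj).symm

/-- every digit is an entry -/
theorem dg_eq_ent (q : Par) (X t : ℕ) :
    dg q.b X t = ent q X (t / (q.n + 1)) (t % (q.n + 1)) := by
  unfold ent
  rw [Nat.div_add_mod']

/-- well-formed packed matrices -/
def WF (q : Par) (X : ℕ) : Prop := X &&& q.mg = X

theorem ent_mg (q : Par) (hq : q.Good) (i j : ℕ) (hj : j ≤ q.n) :
    ent q q.mg i j = if i < q.n ∧ j < q.n then q.c0 else 0 := by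
  have hlt : q.c0 * rep q.b q.n < q.Z := by
    unfold Par.Z
    rw [pow_succ']
    exact Nat.mul_lt_mul'' hq.hc0 (rep_lt q.b hq.hb q.n)
  rw [ent_eq q _ i j hj, Par.mg, dg_mul_rep q.Z _ hq.hZ hlt]
  by_cases hi : i < q.n
  · rw [if_pos hi, dg_mul_rep q.b _ hq.hb hq.hc0]
    by_cases h : j < q.n
    · rw [if_pos h, if_pos ⟨hi, h⟩]
    · rw [if_neg h, if_neg (fun h' => h h'.2)]
  · rw [if_neg hi, dg_zero_left, if_neg (fun h' => hi h'.1)]

theorem ent_land (q : Par) (X Y i j : ℕ) : ent q (X &&& Y) i j = ent q X i j &&& ent q Y i j :=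
  dg_land q.w X Y _

theorem WF.ent_le {q : Par} {X : ℕ} (h : WF q X) (hq : q.Good) (i j : ℕ) (hj : j ≤ q.n) :
    ent q X i j ≤ q.c0 := by
  rw [← h, ent_land, ent_mg q hq i j hj]
  refine le_trans Nat.and_le_right ?_
  split_ifs <;> omega

theorem WF.ent_eq_zero {q : Par} {X : ℕ} (h : WF q X) (hq : q.Good) (i j : ℕ) (hj : j ≤ q.n)
    (h2 : ¬ (i < q.n ∧ j < q.n)) : ent q X i j = 0 := by
  rw [← h, ent_land, ent_mg q hq i j hj, if_neg h2, Nat.and_zero]

theorem WF.row_lt {q : Par} {Y : ℕ} (h : WF q Y) (hq : q.Good) (t : ℕ) :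
    dg q.Z Y t < q.b ^ q.n := by
  have h0 : ent q Y t q.n = 0 := h.ent_eq_zero hq t q.n le_rfl (fun h' => lt_irrefl _ h'.2)
  rw [ent_eq q _ _ _ le_rfl] at h0
  have h1 : dg q.Z Y t < q.b ^ q.n * q.b := by
    have := dg_lt q.Z Y t (by have := hq.hZ; omega)
    rwa [Par.Z, pow_succ] at this
  have h2 : dg q.Z Y t / q.b ^ q.n < q.b := Nat.div_lt_of_lt_mul h1
  have h0' : dg q.Z Y t / q.b ^ q.n % q.b = 0 := h0
  rw [Nat.mod_eq_of_lt h2] at h0'
  rcases Nat.div_eq_zero_iff.1 h0' with h3 | h3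
  · have : 0 < q.b ^ q.n := Nat.pow_pos (by have := hq.hb; omega)
    omega
  · exact h3

theorem WF.row_dg_le {q : Par} {Y : ℕ} (h : WF q Y) (hq : q.Good) (t j : ℕ) :
    dg q.b (dg q.Z Y t) j ≤ q.c0 := by
  by_cases hj : j ≤ q.n
  · rw [← ent_eq q _ _ _ hj]; exact h.ent_le hq t j hj
  · rw [dg_eq_zero_of_lt]
    · omega
    · refine lt_of_lt_of_le (h.row_lt hq t) ?_
      exact Nat.pow_le_pow_right (by have := hq.hb; omega) (by omega)

/-- the unreduced product -/
def mulGo (b Z mk : ℕ) : ℕ → ℕ → ℕ → ℕ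
  | 0, _, _ => 0
  | k + 1, X, Y => (X &&& mk) * (Y % Z) + mulGo b Z mk k (X / b) (Y / Z)

theorem mulGo_eq (b Z mk : ℕ) : ∀ (k X Y : ℕ), mulGo b Z mk k X Y =
    ∑ t ∈ Finset.range k, dg Z Y t * ((X / b ^ t) &&& mk) := by
  intro k
  induction k with
  | zero => intros; rfl
  | succ k ih =>
    intro X Y
    rw [mulGo, ih, Finset.sum_range_succ']
    simp only [dg_succ, dg_zero, pow_zero, Nat.div_one, pow_succ', Nat.div_div_eq_div_mul]
    ring

/-- the unreduced product -/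
def mulU (q : Par) (X Y : ℕ) : ℕ := mulGo q.b q.Z q.mz q.n X Y

theorem dg_col (q : Par) (hq : q.Good) (X t i : ℕ) :
    dg q.Z ((X / q.b ^ t) &&& q.mz) i = if i < q.n then ent q X i t else 0 := by
  have hlt : q.b - 1 < q.Z := by have := hq.hbZ; have := hq.hb; omega
  have e1 : dg q.Z ((X / q.b ^ t) &&& q.mz) i = dg q.Z (X / q.b ^ t) i &&& dg q.Z q.mz i := by
    rw [Par.Z_eq]; exact dg_land _ _ _ _
  rw [e1, Par.mz, dg_mul_rep q.Z (q.b - 1) hq.hZ hlt]
  split_ifs
  · have : q.b - 1 = 2 ^ q.w - 1 := rfl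
    rw [this, Nat.and_two_pow_sub_one_eq_mod]
    exact dg_shift q.b q.n X i t
  · exact Nat.and_zero _

theorem dgZ_mulU (q : Par) (hq : q.Good) (X Y : ℕ) (hX : WF q X) (hY : WF q Y) (i : ℕ) :
    dg q.Z (mulU q X Y) i =
      if i < q.n then ∑ t ∈ Finset.range q.n, ent q X i t * dg q.Z Y t else 0 := by
  rw [mulU, mulGo_eq, dg_sum q.Z (by have := hq.hZ; omega) (fun t => dg q.Z Y t)
    (fun t => (X / q.b ^ t) &&& q.mz) q.n ?_ i]
  · simp only [dg_col q hq]
    split_ifs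
    · exact Finset.sum_congr rfl (fun t _ => mul_comm _ _)
    · simp
  · intro i
    simp only [dg_col q hq]
    have h1 : ∑ t ∈ Finset.range q.n, dg q.Z Y t * (if i < q.n then ent q X i t else 0) ≤
        q.n * (q.b ^ q.n * q.c0) := by
      apply sum_le_mul
      intro t ht
      apply Nat.mul_le_mul (le_of_lt (hY.row_lt hq t))
      split_ifs
      · exact hX.ent_le hq i t (le_of_lt ht)
      · omega
    refine lt_of_le_of_lt h1 ?_
    have h2 : q.n * (q.b ^ q.n * q.c0) = (q.n * q.c0) * q.b ^ q.n := by ring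
    rw [h2, Par.Z, pow_succ']
    exact Nat.mul_lt_mul_of_pos_right hq.h4 (Nat.pow_pos (by have := hq.hb; omega))

theorem sum_ent_le (q : Par) (hq : q.Good) (X Y : ℕ) (hX : WF q X) (hY : WF q Y) (i j : ℕ) :
    ∑ t ∈ Finset.range q.n, ent q X i t * dg q.b (dg q.Z Y t) j ≤ q.D := by
  apply sum_le_mul
  intro t ht
  exact Nat.mul_le_mul (hX.ent_le hq i t (le_of_lt ht)) (hY.row_dg_le hq t j)

theorem ent_mulU (q : Par) (hq : q.Good) (X Y : ℕ) (hX : WF q X) (hY : WF q Y) (i j : ℕ)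
    (hi : i < q.n) (hj : j ≤ q.n) :
    ent q (mulU q X Y) i j = ∑ t ∈ Finset.range q.n, ent q X i t * ent q Y t j := by
  rw [ent_eq q _ _ _ hj, dgZ_mulU q hq X Y hX hY, if_pos hi,
    dg_sum q.b (by have := hq.hb; omega) (fun t => ent q X i t) (fun t => dg q.Z Y t) q.n
      (fun j => lt_of_le_of_lt (sum_ent_le q hq X Y hX hY i j) hq.hD) j]
  exact Finset.sum_congr rfl (fun t _ => by rw [ent_eq q _ _ _ hj])

theorem dg_mulU_le (q : Par) (hq : q.Good) (X Y : ℕ) (hX : WF q X) (hY : WF q Y) (t : ℕ) :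
    dg q.b (mulU q X Y) t ≤ q.D := by
  have hj : t % (q.n + 1) ≤ q.n := Nat.lt_succ_iff.1 (Nat.mod_lt _ (by omega))
  rw [dg_eq_ent]
  by_cases hi : t / (q.n + 1) < q.n
  · rw [ent_mulU q hq X Y hX hY _ _ hi hj]
    have := sum_ent_le q hq X Y hX hY (t / (q.n + 1)) (t % (q.n + 1))
    refine le_trans (le_of_eq ?_) this
    exact Finset.sum_congr rfl (fun t _ => by rw [ent_eq q _ _ _ hj])
  · rw [ent_eq q _ _ _ hj, dgZ_mulU q hq X Y hX hY, if_neg hi, dg_zero_left]
    omega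

/-- reduction of all digits -/
def redAll (q : Par) (P : ℕ) : ℕ := (P + q.c * ((q.m * P / 2 ^ q.s) &&& q.mq)) &&& q.mg

theorem dg_quot (q : Par) (hq : q.Good) (T t : ℕ) :
    dg q.b ((T / 2 ^ q.s) &&& q.mq) t =
      if t < (q.n + 1) * q.n then dg q.b T t / 2 ^ q.s else 0 := by
  have hlt : 2 ^ (q.w - q.s) - 1 < q.b := by
    have h1 : 2 ^ (q.w - q.s) ≤ 2 ^ q.w := Nat.pow_le_pow_right (by norm_num) (Nat.sub_le _ _)
    have h2 : 0 < 2 ^ (q.w - q.s) := by positivity
    unfold Par.b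
    omega
  have e1 : dg q.b ((T / 2 ^ q.s) &&& q.mq) t = dg q.b (T / 2 ^ q.s) t &&& dg q.b q.mq t :=
    dg_land _ _ _ _
  rw [e1, Par.mq, dg_mul_rep q.b _ hq.hb hlt]
  split_ifs
  · rw [Nat.and_two_pow_sub_one_eq_mod]
    unfold dg
    have hd : 2 ^ (q.w - q.s) ∣ q.b := pow_dvd_pow 2 (Nat.sub_le _ _)
    have hb : q.b = 2 ^ q.s * 2 ^ (q.w - q.s) := by
      unfold Par.b
      rw [← pow_add]; congr 1; have := hq.hs; omega
    rw [Nat.mod_mod_of_dvd _ hd, Nat.div_div_eq_div_mul, mul_comm, ← Nat.div_div_eq_div_mul]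
    generalize T / q.b ^ t = a
    rw [hb, Nat.mod_mul_right_div_self]
  · exact Nat.and_zero _

theorem dg_pre (q : Par) (hq : q.Good) (P : ℕ) (hP : ∀ t, dg q.b P t ≤ q.D) (t : ℕ)
    (ht : t < (q.n + 1) * q.n) :
    dg q.b (P + q.c * ((q.m * P / 2 ^ q.s) &&& q.mq)) t =
      dg q.b P t + q.c * (q.m * dg q.b P t / 2 ^ q.s) := by
  have hb0 : 0 < q.b := by have := hq.hb; omega
  have h1 : ∀ t, dg q.b (q.m * P) t = q.m * dg q.b P t := fun t =>
    dg_mul q.b hb0 q.m t P (fun j => lt_of_le_of_lt (Nat.mul_le_mul_left _ (hP j)) hq.h1)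
  have h2 : ∀ t, dg q.b ((q.m * P / 2 ^ q.s) &&& q.mq) t ≤ q.m * q.D / 2 ^ q.s := by
    intro t
    rw [dg_quot q hq, h1]
    split_ifs
    · exact Nat.div_le_div_right (Nat.mul_le_mul_left _ (hP t))
    · exact Nat.zero_le _
  have h3 : ∀ t, dg q.b (q.c * ((q.m * P / 2 ^ q.s) &&& q.mq)) t =
      q.c * dg q.b ((q.m * P / 2 ^ q.s) &&& q.mq) t := fun t =>
    dg_mul q.b hb0 q.c t _ (fun j => lt_of_le_of_lt (Nat.mul_le_mul_left _ (h2 j))
      (lt_of_le_of_lt (Nat.le_add_left _ _) hq.h2))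
  rw [dg_add q.b hb0 t _ _ (fun j => by
    rw [h3]
    exact lt_of_le_of_lt (Nat.add_le_add (hP j) (Nat.mul_le_mul_left _ (h2 j))) hq.h2),
    h3, dg_quot q hq, if_pos ht, h1]

theorem ent_redAll (q : Par) (hq : q.Good) (P : ℕ) (hP : ∀ t, dg q.b P t ≤ q.D) (i j : ℕ)
    (hi : i < q.n) (hj : j < q.n) :
    ent q (redAll q P) i j =
      (ent q P i j + q.c * (q.m * ent q P i j / 2 ^ q.s)) % 2 ^ q.e := by
  have ht : i * (q.n + 1) + j < (q.n + 1) * q.n := by
    calc i * (q.n + 1) + j < i * (q.n + 1) + (q.n + 1) := by omega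
      _ = (i + 1) * (q.n + 1) := by ring
      _ ≤ q.n * (q.n + 1) := Nat.mul_le_mul_right _ hi
      _ = (q.n + 1) * q.n := by ring
  rw [redAll, ent_land, ent_mg q hq i j (le_of_lt hj), if_pos ⟨hi, hj⟩, Par.c0,
    Nat.and_two_pow_sub_one_eq_mod]
  unfold ent
  rw [dg_pre q hq P hP _ ht]

/-- the matrix of a packed matrix -/
def toMat (q : Par) (X : ℕ) : Matrix (Fin q.n) (Fin q.n) (ZMod q.p) :=
  fun i j => ((ent q X i j : ℕ) : ZMod q.p)

theorem toMat_apply (q : Par) (X : ℕ) (i j : Fin q.n) :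
    toMat q X i j = ((ent q X i j : ℕ) : ZMod q.p) := rfl

/-- the product of packed matrices -/
def mulN (q : Par) (X Y : ℕ) : ℕ := redAll q (mulU q X Y)

theorem WF_mulN (q : Par) (X Y : ℕ) : WF q (mulN q X Y) := by
  unfold WF mulN redAll
  rw [Nat.and_assoc, Nat.and_self]

theorem toMat_mulN (q : Par) (hq : q.Good) (X Y : ℕ) (hX : WF q X) (hY : WF q Y) :
    toMat q (mulN q X Y) = toMat q X * toMat q Y := by
  ext i j
  rw [Matrix.mul_apply]
  show ((ent q (redAll q (mulU q X Y)) i j : ℕ) : ZMod q.p) = _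
  have hle : ent q (mulU q X Y) i j ≤ q.D := dg_mulU_le q hq X Y hX hY _
  rw [ent_redAll q hq _ (dg_mulU_le q hq X Y hX hY) i j i.2 j.2,
    (ZMod.natCast_eq_natCast_iff' _ _ _).2 (hq.h3 _ hle),
    ent_mulU q hq X Y hX hY i j i.2 (le_of_lt j.2), Nat.cast_sum,
    ← Fin.sum_univ_eq_sum_range (fun k => ((ent q X i k * ent q Y k j : ℕ) : ZMod q.p)) q.n]
  apply Finset.sum_congr rfl
  intro k _
  rw [Nat.cast_mul]
  rfl

/-- the packed identity matrix -/
def idGo (b Z : ℕ) : ℕ → ℕ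
  | 0 => 0
  | k + 1 => idGo b Z k + b ^ k * Z ^ k

theorem idGo_eq (b Z : ℕ) : ∀ k, idGo b Z k = ∑ t ∈ Finset.range k, b ^ t * Z ^ t := by
  intro k
  induction k with
  | zero => rfl
  | succ k ih => rw [idGo, ih, Finset.sum_range_succ]

/-- the packed identity matrix -/
def idN (q : Par) : ℕ := idGo q.b q.Z q.n

theorem ent_idN (q : Par) (hq : q.Good) (i j : ℕ) (hi : i < q.n) (hj : j ≤ q.n) :
    ent q (idN q) i j = if i = j then 1 else 0 := by
  have hs : ∀ i, ∑ t ∈ Finset.range q.n, q.b ^ t * dg q.Z (q.Z ^ t) i =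
      if i < q.n then q.b ^ i else 0 := by
    intro i
    simp only [dg_pow q.Z hq.hZ, mul_ite, mul_one, mul_zero, Finset.sum_ite_eq',
      Finset.mem_range]
  rw [ent_eq q _ _ _ hj, idN, idGo_eq, dg_sum q.Z (by have := hq.hZ; omega) (fun t => q.b ^ t)
    (fun t => q.Z ^ t) q.n ?_ i, hs, if_pos hi, dg_pow q.b hq.hb]
  intro i
  rw [hs]
  split_ifs with h
  · exact Nat.pow_lt_pow_right hq.hb (by omega)
  · have := hq.hZ; omega

theorem toMat_idN (q : Par) (hq : q.Good) : toMat q (idN q) = 1 := by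
  ext i j
  show ((ent q (idN q) i j : ℕ) : ZMod q.p) = _
  rw [ent_idN q hq i j i.2 (le_of_lt j.2), Matrix.one_apply]
  by_cases h : i = j
  · subst h; simp
  · rw [if_neg h, if_neg (fun e => h (Fin.ext e))]; simp

/-- evaluate a word in packed matrices -/
def wordL (q : Par) (mats : ℕ → ℕ) : List ℕ → ℕ
  | [] => idN q
  | l :: w => mulN q (mats l) (wordL q mats w)

theorem WF_wordL (q : Par) (mats : ℕ → ℕ) (hid : WF q (idN q)) :
    ∀ w, WF q (wordL q mats w)
  | [] => hid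
  | _ :: _ => WF_mulN q _ _

theorem wordL_spec (q : Par) (hq : q.Good) (mats : ℕ → ℕ) (hid : WF q (idN q))
    (hm : ∀ l, WF q (mats l)) :
    ∀ w, toMat q (wordL q mats w) = (w.map (fun l => toMat q (mats l))).prod := by
  intro w
  induction w with
  | nil => simp [wordL, toMat_idN q hq]
  | cons l w ih =>
    rw [wordL, toMat_mulN q hq _ _ (hm l) (WF_wordL q mats hid w), ih, List.map_cons,
      List.prod_cons]

/-- check: the word evaluates to the identity -/
def wordOne (q : Par) (mats : ℕ → ℕ) (w : List ℕ) : Bool := Nat.beq (wordL q mats w) (idN q)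

theorem wordOne_spec (q : Par) (hq : q.Good) (mats : ℕ → ℕ) (hid : WF q (idN q))
    (hm : ∀ l, WF q (mats l)) (w : List ℕ) (h : wordOne q mats w = true) :
    (w.map (fun l => toMat q (mats l))).prod = 1 := by
  rw [← wordL_spec q hq mats hid hm w, Nat.eq_of_beq_eq_true h, toMat_idN q hq]

/-- pack the rows of a matrix -/
def packRows (Z : ℕ) : List ℕ → ℕ
  | [] => 0
  | r :: rest => r + Z * packRows Z rest

end Cfsg.Agent.Lib.Helper11.PM2
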