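import Mathlib
import Cfsg.Agent.Lib.Helper11.SimpleModel

/-!
# Simplicity of a perfect primitive group whose point stabiliser is almost simple of index-two type
-/

set_option autoImplicit false

namespace Cfsg.Agent.Lib.Helper11

section

variable {G P : Type*} [Group G] [Group P]

theorem simple_of_tower (H : Subgroup G) (f : P →* G) (hf : f.range = H) (hnt : Nontrivial G)
    (hperf : commutator G = ⊤) (hmax : IsCoatom H)
    (hfaith : ∀ g : G, (∀ q : G ⧸ H, g • q = q) → g = 1)
    (hmin : ∀ K : Subgroup P, K.Normal → K ≠ ⊥ → commutator P ≤ K)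
    (hP : commutator P ≠ ⊤) : IsSimpleGroup G := by
  subst hf
  refine { exists_pair_ne := hnt.exists_pair_ne, eq_bot_or_eq_top_of_normal := ?_ }
  intro N hN
  by_contra hcon
  push Not at hcon
  obtain ⟨hbot, htop⟩ := hcon
  have hnle : ¬ N ≤ f.range := by
    intro hle
    apply hbot
    rw [eq_bot_iff]
    intro g hg
    rw [Subgroup.mem_bot]
    apply hfaith
    intro q
    induction q using QuotientGroup.induction_on with
    | H x =>
      show ((g * x : G) : G ⧸ f.range) = (x : G ⧸ f.range)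
      rw [eq_comm, QuotientGroup.eq]
      apply hle
      have := hN.conj_mem g hg x⁻¹
      simpa [mul_assoc] using this
  have hsup : N ⊔ f.range = ⊤ := by
    apply hmax.2
    apply lt_of_le_of_ne le_sup_right
    intro h
    apply hnle
    rw [h]
    exact le_sup_left
  set ψ : P →* G ⧸ N := (QuotientGroup.mk' N).comp f with hψ
  have hrange : ψ.range = ⊤ := by
    rw [hψ, MonoidHom.range_comp]
    have h1 : (N ⊔ f.range).map (QuotientGroup.mk' N) = ⊤ := by
      rw [hsup, ← MonoidHom.range_eq_map, MonoidHom.range_eq_top]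
      exact QuotientGroup.mk'_surjective N
    rw [Subgroup.map_sup, QuotientGroup.map_mk'_self, bot_sup_eq] at h1
    exact h1
  have hq : commutator (G ⧸ N) = ⊤ := by
    have h1 : (commutator G).map (QuotientGroup.mk' N) = ⊤ := by
      rw [hperf, ← MonoidHom.range_eq_map, MonoidHom.range_eq_top]
      exact QuotientGroup.mk'_surjective N
    rw [commutator_def, Subgroup.map_commutator, ← MonoidHom.range_eq_map,
      MonoidHom.range_eq_top.2 (QuotientGroup.mk'_surjective N)] at h1
    exact h1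
  have hmap : (commutator P).map ψ = ⊤ := by
    rw [commutator_def, Subgroup.map_commutator, ← MonoidHom.range_eq_map, hrange]
    exact hq
  have hsup2 : commutator P ⊔ ψ.ker = ⊤ := by
    rw [← Subgroup.comap_map_eq, hmap, Subgroup.comap_top]
  by_cases hk : ψ.ker = ⊥
  · rw [hk, sup_bot_eq] at hsup2
    exact hP hsup2
  · have h1 := hmin ψ.ker inferInstance hk
    rw [sup_eq_right.2 h1] at hsup2
    apply htop
    rw [← hsup, eq_comm, sup_eq_left]
    rintro _ ⟨p, rfl⟩
    have hp : p ∈ ψ.ker := by rw [hsup2]; trivial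
    exact (QuotientGroup.eq_one_iff _).1 hp

end

section

variable {G F P : Type*} [Group G] [Group F] [Group P]

/-- simplicity of a perfect group with a verified primitive model whose point stabiliser is a quotient
of a group `P` in which every non-trivial normal subgroup contains the (proper) commutator subgroup -/
theorem model_tower (mk : F →* G) (S : Set F) (ψ : G →* Equiv.Perm ℕ)
    (φ : ℕ → F) (INV : ℕ) (NT : ℕ → List (ℕ × ℕ)) (k : ℕ)
    (hNT : ∀ l, ∀ st ∈ NT l, stOK (2 ^ (2 ^ k)) st = true)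
    (hψ : ∀ e : WExp, ψ (mk (e.eval φ)) = wordPerm NT (e.letters INV))
    (hExps : List WExp) (hS1 : ∀ s ∈ S, ∃ e ∈ hExps, e.eval φ = s)
    (hS2 : ∀ e ∈ hExps, e.eval φ ∈ S)
    (gExps : List WExp)
    (hgen : ∀ g : G, g ∈ Subgroup.closure {t | ∃ e ∈ gExps, t = mk (e.eval φ)}) (n r0 : ℕ)
    (hn : 1 < n)
    (hup : ((Subgroup.closure S).map mk).index ≠ 0 ∧ ((Subgroup.closure S).map mk).index ≤ n)
    (hfix0 : fixChk NT (hExps.map (fun e => e.letters INV)) 0 1 = true)
    (htr : growChk NT (gExps.map (fun e => e.letters INV)) r0 0 0 n = true)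
    (hinvn : fixChk NT (gExps.map (fun e => e.letters INV)) 0 n = true)
    (bs : List ℕ) (hbs : stabL ψ bs = ⊥) (hbn : ∀ b ∈ bs, b < n)
    (L : List (ℕ × ℕ × WExp × ℕ))
    (hprim : primChk NT INV (hExps.map (fun e => e.letters INV)) n 1 L = true)
    (hperf : commutator G = ⊤)
    (f : P →* G) (hf : f.range = (Subgroup.closure S).map mk)
    (hmin : ∀ K : Subgroup P, K.Normal → K ≠ ⊥ → commutator P ≤ K)
    (hP : commutator P ≠ ⊤) : IsSimpleGroup G := by
  set H := (Subgroup.closure S).map mk with hH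
  have hfaith : ∀ g : G, (∀ p < n, ψ g p = p) → g = 1 := by
    intro g hg
    have : g ∈ stabL ψ bs := fun b hb => hg b (hbn b hb)
    rw [hbs] at this
    exact Subgroup.mem_bot.1 this
  have hHc : H = Subgroup.closure (mk '' S) := by rw [hH, MonoidHom.map_closure]
  have hT : ∀ t ∈ mk '' S, ∃ w ∈ hExps.map (fun e => e.letters INV), ψ t = wordPerm NT w := by
    rintro _ ⟨s, hs, rfl⟩
    obtain ⟨e, he, rfl⟩ := hS1 s hs
    exact ⟨_, List.mem_map_of_mem he, hψ e⟩
  have hmv : ∀ w ∈ hExps.map (fun e => e.letters INV), ∃ t ∈ H, ψ t = wordPerm NT w := by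
    intro w hw
    obtain ⟨e, he, rfl⟩ := List.mem_map.1 hw
    exact ⟨mk (e.eval φ), Subgroup.mem_map_of_mem _ (Subgroup.subset_closure (hS2 e he)), hψ e⟩
  have hfix : ∀ h ∈ H, ψ h 0 = 0 := by
    intro h hh
    rw [hHc] at hh
    have := (inv_of_bits ψ (mk '' S) _ NT hNT _ hT 0 1 hfix0 h hh 0).2 ⟨le_refl _, by norm_num⟩
    omega
  have htrans : ∀ p, p < n → ∃ g : G, ψ g 0 = p := by
    intro p hp
    obtain ⟨g, _, e⟩ := reach_of_grow ψ ⊤ _ NT hNT (gExps.map (fun e => e.letters INV)) (by
      intro w hw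
      obtain ⟨e, _, rfl⟩ := List.mem_map.1 hw
      exact ⟨mk (e.eval φ), Subgroup.mem_top _, hψ e⟩) 0 r0 0 n htr p (Nat.zero_le _) (by omega)
    exact ⟨g, e⟩
  obtain ⟨-, hinj⟩ := model_index H ψ n hup hfix htrans
  have hlt : ∀ g : G, ψ g 0 < n := by
    intro g
    have := (inv_of_bits ψ {t | ∃ e ∈ gExps, t = mk (e.eval φ)} _ NT hNT
      (gExps.map (fun e => e.letters INV)) (by
        rintro _ ⟨e, he, rfl⟩
        exact ⟨_, List.mem_map_of_mem he, hψ e⟩) 0 n hinvn g (hgen g) 0).2 ⟨le_refl _, by omega⟩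
    omega
  have hcases := primChk_spec mk H ψ φ INV NT _ hNT hψ _ hmv n hfix hinj hlt L 1 hprim
  have hmax : IsCoatom H := by
    apply coatom_of_model H ψ hfix hinj
    · obtain ⟨g, hg⟩ := htrans 1 hn
      exact ⟨g, by omega⟩
    · intro K hK k hk h0
      exact hcases K hK k hk h0
  have hnt : Nontrivial G := by
    obtain ⟨g, hg⟩ := htrans 1 hn
    refine ⟨g, 1, ?_⟩
    rintro rfl
    rw [map_one] at hg
    simp at hg
  apply simple_of_tower H f hf hnt hperf hmax _ hmin hP
  intro g hg
  apply hfaith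
  intro p hp
  obtain ⟨x, hx⟩ := htrans p hp
  have h1 := hg (x : G ⧸ H)
  have h2 := cosetPt_smul H ψ hfix g (x : G ⧸ H)
  rw [h1, cosetPt_mk, hx] at h2
  exact h2.symm

end

end Cfsg.Agent.Lib.Helper11
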