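import Cfsg.Agent.Lib.Helper11.WB2o.Chain
import Cfsg.Agent.Lib.Helper11.WB2a.Upper
import Cfsg.Agent.Lib.Helper11.WB2c0.Upper
import Cfsg.Agent.Lib.Helper11.CoxW

/-!
# The Coxeter group `WB2`: order, Coxeter element, centre, generation
-/

set_option autoImplicit false
set_option maxRecDepth 100000

namespace Cfsg.Agent.Lib.Helper11.WB2M

open Cfsg.Agent.Lib.Helper11 Cfsg.Spor Cfsg.Agent.Lib.Helper11.WB2

theorem mono {S T : Set (FreeGroup Gen)} (h : S ⊆ T) :
    (Subgroup.closure S).map (PresentedGroup.mk (coxRelators edges ∪ {r | r ∈ extra})) ≤ (Subgroup.closure T).map (PresentedGroup.mk (coxRelators edges ∪ {r | r ∈ extra})) :=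
  Subgroup.map_mono (Subgroup.closure_mono h)

theorem card_le : Nat.card Cfsg.Agent.Lib.Helper11.WB2 ≠ 0 ∧ Nat.card Cfsg.Agent.Lib.Helper11.WB2 ≤ 8 := by
  have h1 : Nat.card ((Subgroup.closure (∅ : Set (FreeGroup Gen))).map (PresentedGroup.mk (coxRelators edges ∪ {r | r ∈ extra}))) ≠ 0 ∧
      Nat.card ((Subgroup.closure (∅ : Set (FreeGroup Gen))).map (PresentedGroup.mk (coxRelators edges ∪ {r | r ∈ extra}))) ≤ 1 := by simp
  have h0 := card_le_step (mono (by simp)) _ _ WB2c0.upper h1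
  have h := card_le_top _ _ WB2a.upper h0
  exact h

/-- numbering of the generators -/
def toFin : Gen → Fin 2
  | .a => 0
  | .b => 1

/-- numbering of the generators -/
def ofFin : Fin 2 → Gen := ![.a, .b]

theorem pack : Nat.card (CoxeterMatrix.B 2).Group = 8 ∧ ∃ ψ' : (CoxeterMatrix.B 2).Group →* Equiv.Perm ℕ,
      (∀ i, ψ' ((CoxeterMatrix.B 2).simple i) = netPerm (ntOf WB2o.ntl ((i : ℕ) + 1))) ∧
      stabL ψ' (pushB WB2o.levels []) = ⊥ := by
  apply bridge_pack (CoxeterMatrix.B 2) edges extra toFin ofFin _ _ _ _ _ WB2o.psi (ntOf WB2o.ntl) _ 8 _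
    (WB2o.order card_le)
  · intro x; cases x <;> decide
  · intro x y; cases x <;> cases y <;> rfl
  · decide
  · intro x; cases x <;> rfl
  · intro r hr
    simp only [extra, List.mem_cons, List.mem_nil_iff, or_false] at hr
    subst hr
    rw [map_mul, FreeGroup.lift_apply_of]
    exact cm_simple_sq _ _
  · intro x
    have h : WB2o.psi (PresentedGroup.of x) = netPerm (ntOf WB2o.ntl (WB2a.code x)) :=
      PresentedGroup.toGroup.of WB2o.hrels
    rw [h]
    cases x <;> rfl

theorem hNT : ∀ l, ∀ st ∈ ntOf WB2o.ntl l, stOK (2 ^ (2 ^ 2)) st = true :=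
  ntOf_ok WB2o.ntl _ WB2o.netsOK

theorem card_eq : Nat.card (CoxeterMatrix.B 2).Group = 8 := pack.1

theorem order_eq : orderOf ((List.finRange 2).map (CoxeterMatrix.B 2).simple).prod = 4 := by
  obtain ⟨ψ, hψ, hst⟩ := pack.2
  exact cox_order (CoxeterMatrix.B 2) ψ (ntOf WB2o.ntl) 2 hψ hNT _ hst 4 0 (by norm_num)
    (by decide +kernel) (by decide +kernel)

theorem center_eq : Nat.card (Subgroup.center (CoxeterMatrix.B 2).Group) = 2 ∧
      Subgroup.center (CoxeterMatrix.B 2).Group ≤ Subgroup.zpowers ((List.finRange 2).map (CoxeterMatrix.B 2).simple).prod := by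
  obtain ⟨ψ, hψ, hst⟩ := pack.2
  exact cox_center_two (CoxeterMatrix.B 2) ψ (ntOf WB2o.ntl) 2 hψ hNT _ hst 4 2 (by norm_num) (by decide)
    (by decide +kernel) (by decide +kernel) [1] (by decide) (by decide +kernel) 3 (by decide +kernel)
    2 (by norm_num) order_eq (by decide +kernel) (by decide +kernel)

/-- the straight line program -/
def steps : List (List ℕ × List ℕ) := [
  ([2, 0], [2])]

theorem gen_eq : ∃ T : Finset (CoxeterMatrix.B 2).Group, T.card = 1 ∧
      (∀ t ∈ T, ∃ (g : (CoxeterMatrix.B 2).Group) (i : Fin 2), t = g * (CoxeterMatrix.B 2).simple i * g⁻¹) ∧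
      Subgroup.closure (({((List.finRange 2).map (CoxeterMatrix.B 2).simple).prod} : Set (CoxeterMatrix.B 2).Group) ∪ ↑T) = ⊤ := by
  obtain ⟨ψ, hψ, hst⟩ := pack.2
  exact cox_gen_one (CoxeterMatrix.B 2) ψ (ntOf WB2o.ntl) 2 hψ hNT _ hst 0 [2, 1] (by decide +kernel) steps
    (by decide +kernel) (by decide +kernel)

end Cfsg.Agent.Lib.Helper11.WB2M
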