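import Cfsg.Agent.Lib.Helper11.WE6o.Chain
import Cfsg.Agent.Lib.Helper11.WE6a.Upper
import Cfsg.Agent.Lib.Helper11.WE6c0.Upper
import Cfsg.Agent.Lib.Helper11.WE6c1.Upper
import Cfsg.Agent.Lib.Helper11.CoxW

/-!
# The Coxeter group `WE6`: order, Coxeter element, centre, generation
-/

set_option autoImplicit false
set_option maxRecDepth 100000

namespace Cfsg.Agent.Lib.Helper11.WE6M

open Cfsg.Agent.Lib.Helper11 Cfsg.Spor Cfsg.Agent.Lib.Helper11.WE6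

theorem mono {S T : Set (FreeGroup Gen)} (h : S ⊆ T) :
    (Subgroup.closure S).map (PresentedGroup.mk (coxRelators edges ∪ {r | r ∈ extra})) ≤ (Subgroup.closure T).map (PresentedGroup.mk (coxRelators edges ∪ {r | r ∈ extra})) :=
  Subgroup.map_mono (Subgroup.closure_mono h)

theorem card_le : Nat.card Cfsg.Agent.Lib.Helper11.WE6 ≠ 0 ∧ Nat.card Cfsg.Agent.Lib.Helper11.WE6 ≤ 51840 := by
  have h2 : Nat.card ((Subgroup.closure (∅ : Set (FreeGroup Gen))).map (PresentedGroup.mk (coxRelators edges ∪ {r | r ∈ extra}))) ≠ 0 ∧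
      Nat.card ((Subgroup.closure (∅ : Set (FreeGroup Gen))).map (PresentedGroup.mk (coxRelators edges ∪ {r | r ∈ extra}))) ≤ 1 := by simp
  have h1 := card_le_step (mono (by simp)) _ _ WE6c1.upper h2
  have h0 := card_le_step (mono (by intro x hx; simp only [Set.mem_insert_iff, Set.mem_singleton_iff] at hx ⊢; tauto)) _ _ WE6c0.upper h1
  have h := card_le_top _ _ WE6a.upper h0
  exact h

/-- numbering of the generators -/
def toFin : Gen → Fin 6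
  | .a => 0
  | .b => 1
  | .c => 2
  | .d => 3
  | .e => 4
  | .f => 5

/-- numbering of the generators -/
def ofFin : Fin 6 → Gen := ![.a, .b, .c, .d, .e, .f]

theorem pack : Nat.card CoxeterMatrix.E₆.Group = 51840 ∧ ∃ ψ' : CoxeterMatrix.E₆.Group →* Equiv.Perm ℕ,
      (∀ i, ψ' (CoxeterMatrix.E₆.simple i) = netPerm (ntOf WE6o.ntl ((i : ℕ) + 1))) ∧
      stabL ψ' (pushB WE6o.levels []) = ⊥ := by
  apply bridge_pack CoxeterMatrix.E₆ edges extra toFin ofFin _ _ _ _ _ WE6o.psi (ntOf WE6o.ntl) _ 51840 _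
    (WE6o.order card_le)
  · intro x; cases x <;> decide
  · intro x y; cases x <;> cases y <;> rfl
  · decide
  · intro x; cases x <;> rfl
  · intro r hr
    simp only [extra, List.mem_cons, List.mem_nil_iff, or_false] at hr
    subst hr
    rw [map_mul, FreeGroup.lift_apply_of]
    exact cm_simple_sq _ _
  · intro x
    have h : WE6o.psi (PresentedGroup.of x) = netPerm (ntOf WE6o.ntl (WE6a.code x)) :=
      PresentedGroup.toGroup.of WE6o.hrels
    rw [h]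
    cases x <;> rfl

theorem hNT : ∀ l, ∀ st ∈ ntOf WE6o.ntl l, stOK (2 ^ (2 ^ 5)) st = true :=
  ntOf_ok WE6o.ntl _ WE6o.netsOK

theorem card_eq : Nat.card CoxeterMatrix.E₆.Group = 51840 := pack.1

theorem order_eq : orderOf ((List.finRange 6).map CoxeterMatrix.E₆.simple).prod = 12 := by
  obtain ⟨ψ, hψ, hst⟩ := pack.2
  exact cox_order CoxeterMatrix.E₆ ψ (ntOf WE6o.ntl) 5 hψ hNT _ hst 12 0 (by norm_num)
    (by decide +kernel) (by decide +kernel)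

theorem center_eq : Nat.card (Subgroup.center CoxeterMatrix.E₆.Group) = 1 ∧
      Subgroup.center CoxeterMatrix.E₆.Group ≤ Subgroup.zpowers ((List.finRange 6).map CoxeterMatrix.E₆.simple).prod := by
  obtain ⟨ψ, hψ, hst⟩ := pack.2
  exact cox_center_one CoxeterMatrix.E₆ ψ (ntOf WE6o.ntl) 5 hψ hNT _ hst 27 4 (by norm_num) (by decide)
    (by decide +kernel) (by decide +kernel) [2, 3, 4, 5, 6] (by decide) (by decide +kernel) (by decide +kernel)

/-- the straight line program -/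
def steps : List (List ℕ × List ℕ) := [
  ([0, 2, 1], [3]),
  ([2, 3, 2], [3, 1, 3]),
  ([0, 3, 1], [4, 2, 4]),
  ([0, 4, 1], [3, 4, 2, 4, 3]),
  ([0, 5, 1], [5, 4, 3, 1, 3, 4, 5]),
  ([0, 6, 1], [4, 5, 2, 4, 3, 1, 3, 4, 2, 5, 4]),
  ([2, 7, 2], [5, 4, 3, 4, 5]),
  ([2, 8, 2], [4, 5, 3, 4, 2, 4, 3, 5, 4]),
  ([3, 9, 3], [5, 4, 5]),
  ([0, 7, 1], [6, 5, 3, 4, 2, 4, 3, 5, 6]),
  ([0, 9, 1], [6, 5, 4, 2, 4, 5, 6]),
  ([0, 10, 1], [5, 6, 4, 5, 2, 4, 3, 1, 3, 4, 2, 5, 4, 6, 5]),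
  ([0, 11, 1], [6, 5, 6]),
  ([0, 12, 1], [4]),
  ([0, 13, 1], [2]),
  ([0, 14, 1], [6, 5, 4, 3, 4, 5, 6]),
  ([0, 15, 1], [5, 2, 4, 3, 1, 3, 4, 2, 5]),
  ([2, 18, 2], [6, 5, 4, 3, 1, 3, 4, 5, 6]),
  ([2, 19, 2], [5, 3, 4, 2, 4, 3, 5]),
  ([3, 21, 3], [5, 4, 2, 4, 5]),
  ([5, 22, 5], [5]),
  ([7, 20, 7], [6])]

theorem gen_eq : ∃ T : Finset CoxeterMatrix.E₆.Group, T.card = 1 ∧
      (∀ t ∈ T, ∃ (g : CoxeterMatrix.E₆.Group) (i : Fin 6), t = g * CoxeterMatrix.E₆.simple i * g⁻¹) ∧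
      Subgroup.closure (({((List.finRange 6).map CoxeterMatrix.E₆.simple).prod} : Set CoxeterMatrix.E₆.Group) ∪ ↑T) = ⊤ := by
  obtain ⟨ψ, hψ, hst⟩ := pack.2
  exact cox_gen_one CoxeterMatrix.E₆ ψ (ntOf WE6o.ntl) 5 hψ hNT _ hst 0 [6, 5, 4, 3, 2, 1] (by decide +kernel) steps
    (by decide +kernel) (by decide +kernel)

end Cfsg.Agent.Lib.Helper11.WE6M
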