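import Cfsg.Agent.Lib.Helper11.WE7o.Chain
import Cfsg.Agent.Lib.Helper11.WE7a.Upper
import Cfsg.Agent.Lib.Helper11.WE7c0.Upper
import Cfsg.Agent.Lib.Helper11.WE7c1.Upper
import Cfsg.Agent.Lib.Helper11.WE7c2.Upper
import Cfsg.Agent.Lib.Helper11.CoxW

/-!
# The Coxeter group `WE7`: order, Coxeter element, centre, generation
-/

set_option autoImplicit false
set_option maxRecDepth 100000

namespace Cfsg.Agent.Lib.Helper11.WE7M

open Cfsg.Agent.Lib.Helper11 Cfsg.Spor Cfsg.Agent.Lib.Helper11.WE7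

theorem mono {S T : Set (FreeGroup Gen)} (h : S ⊆ T) :
    (Subgroup.closure S).map (PresentedGroup.mk (coxRelators edges ∪ {r | r ∈ extra})) ≤ (Subgroup.closure T).map (PresentedGroup.mk (coxRelators edges ∪ {r | r ∈ extra})) :=
  Subgroup.map_mono (Subgroup.closure_mono h)

theorem card_le : Nat.card Cfsg.Agent.Lib.Helper11.WE7 ≠ 0 ∧ Nat.card Cfsg.Agent.Lib.Helper11.WE7 ≤ 2903040 := by
  have h3 : Nat.card ((Subgroup.closure (∅ : Set (FreeGroup Gen))).map (PresentedGroup.mk (coxRelators edges ∪ {r | r ∈ extra}))) ≠ 0 ∧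
      Nat.card ((Subgroup.closure (∅ : Set (FreeGroup Gen))).map (PresentedGroup.mk (coxRelators edges ∪ {r | r ∈ extra}))) ≤ 1 := by simp
  have h2 := card_le_step (mono (by simp)) _ _ WE7c2.upper h3
  have h1 := card_le_step (mono (by intro x hx; simp only [Set.mem_insert_iff, Set.mem_singleton_iff] at hx ⊢; tauto)) _ _ WE7c1.upper h2
  have h0 := card_le_step (mono (by intro x hx; simp only [Set.mem_insert_iff, Set.mem_singleton_iff] at hx ⊢; tauto)) _ _ WE7c0.upper h1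
  have h := card_le_top _ _ WE7a.upper h0
  exact h

/-- numbering of the generators -/
def toFin : Gen → Fin 7
  | .a => 0
  | .b => 1
  | .c => 2
  | .d => 3
  | .e => 4
  | .f => 5
  | .g => 6

/-- numbering of the generators -/
def ofFin : Fin 7 → Gen := ![.a, .b, .c, .d, .e, .f, .g]

theorem pack : Nat.card CoxeterMatrix.E₇.Group = 2903040 ∧ ∃ ψ' : CoxeterMatrix.E₇.Group →* Equiv.Perm ℕ,
      (∀ i, ψ' (CoxeterMatrix.E₇.simple i) = netPerm (ntOf WE7o.ntl ((i : ℕ) + 1))) ∧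
      stabL ψ' (pushB WE7o.levels []) = ⊥ := by
  apply bridge_pack CoxeterMatrix.E₇ edges extra toFin ofFin _ _ _ _ _ WE7o.psi (ntOf WE7o.ntl) _ 2903040 _
    (WE7o.order card_le)
  · intro x; cases x <;> decide
  · intro x y; cases x <;> cases y <;> rfl
  · decide
  · intro x; cases x <;> rfl
  · intro r hr
    simp only [extra, List.mem_cons, List.mem_nil_iff, or_false] at hr
    subst hr
    rw [map_mul, FreeGroup.lift_apply_of]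
    exact cm_simple_sq _ _
  · intro x
    have h : WE7o.psi (PresentedGroup.of x) = netPerm (ntOf WE7o.ntl (WE7a.code x)) :=
      PresentedGroup.toGroup.of WE7o.hrels
    rw [h]
    cases x <;> rfl

theorem hNT : ∀ l, ∀ st ∈ ntOf WE7o.ntl l, stOK (2 ^ (2 ^ 6)) st = true :=
  ntOf_ok WE7o.ntl _ WE7o.netsOK

theorem card_eq : Nat.card CoxeterMatrix.E₇.Group = 2903040 := pack.1

theorem order_eq : orderOf ((List.finRange 7).map CoxeterMatrix.E₇.simple).prod = 18 := by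
  obtain ⟨ψ, hψ, hst⟩ := pack.2
  exact cox_order CoxeterMatrix.E₇ ψ (ntOf WE7o.ntl) 6 hψ hNT _ hst 18 0 (by norm_num)
    (by decide +kernel) (by decide +kernel)

theorem center_eq : Nat.card (Subgroup.center CoxeterMatrix.E₇.Group) = 2 ∧
      Subgroup.center CoxeterMatrix.E₇.Group ≤ Subgroup.zpowers ((List.finRange 7).map CoxeterMatrix.E₇.simple).prod := by
  obtain ⟨ψ, hψ, hst⟩ := pack.2
  exact cox_center_two CoxeterMatrix.E₇ ψ (ntOf WE7o.ntl) 6 hψ hNT _ hst 56 9 (by norm_num) (by decide)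
    (by decide +kernel) (by decide +kernel) [1, 2, 3, 4, 5, 6] (by decide) (by decide +kernel) 55 (by decide +kernel)
    9 (by norm_num) order_eq (by decide +kernel) (by decide +kernel)

/-- the straight line program -/
def steps : List (List ℕ × List ℕ) := [
  ([0, 2, 1], [4, 3, 1, 3, 4]),
  ([2, 3, 2], [2, 4, 3, 1, 3, 4, 2]),
  ([0, 3, 1], [5, 3, 4, 2, 4, 3, 5]),
  ([0, 4, 1], [3, 4, 5, 2, 4, 3, 1, 3, 4, 2, 5, 4, 3]),
  ([2, 5, 2], [5, 4, 3, 4, 5]),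
  ([0, 5, 1], [6, 4, 5, 2, 4, 3, 1, 3, 4, 2, 5, 4, 6]),
  ([0, 6, 1], [2, 4, 5, 6, 3, 4, 5, 2, 4, 3, 1, 3, 4, 2, 5, 4, 3, 6, 5, 4, 2]),
  ([0, 7, 1], [6, 5, 4, 2, 4, 5, 6]),
  ([2, 9, 2], [4, 5, 6, 3, 4, 5, 2, 4, 3, 1, 3, 4, 2, 5, 4, 3, 6, 5, 4]),
  ([2, 10, 2], [6, 5, 4, 5, 6]),
  ([3, 11, 3], [5, 6, 4, 5, 3, 4, 2, 4, 3, 5, 4, 6, 5]),
  ([0, 10, 1], [7, 6, 5, 4, 3, 1, 3, 4, 5, 6, 7]),
  ([0, 11, 1], [5, 6, 7, 2, 4, 5, 6, 3, 4, 5, 2, 4, 3, 1, 3, 4, 2, 5, 4, 3, 6, 5, 4, 2, 7, 6, 5]),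
  ([0, 12, 1], [7, 6, 5, 6, 7]),
  ([0, 13, 1], [6, 7, 5, 6, 4, 5, 2, 4, 3, 1, 3, 4, 2, 5, 4, 6, 5, 7, 6]),
  ([2, 15, 2], [5, 6, 7, 4, 5, 6, 3, 4, 5, 2, 4, 3, 1, 3, 4, 2, 5, 4, 3, 6, 5, 4, 7, 6, 5]),
  ([0, 14, 1], [1]),
  ([0, 16, 1], [5, 2, 4, 3, 1, 3, 4, 2, 5]),
  ([0, 17, 1], [7, 6, 5, 4, 3, 4, 5, 6, 7]),
  ([0, 18, 1], [6, 7, 5, 6, 4, 5, 3, 4, 2, 4, 3, 5, 4, 6, 5, 7, 6]),
  ([2, 20, 2], [5, 4, 3, 1, 3, 4, 5]),
  ([2, 21, 2], [7, 6, 5, 3, 4, 2, 4, 3, 5, 6, 7]),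
  ([3, 23, 3], [5]),
  ([0, 19, 1], [3]),
  ([0, 22, 1], [7, 6, 5, 4, 5, 6, 7]),
  ([0, 24, 1], [4]),
  ([0, 25, 1], [6]),
  ([2, 27, 2], [7, 6, 5, 4, 2, 4, 5, 6, 7]),
  ([3, 30, 3], [7, 6, 4, 5, 2, 4, 3, 1, 3, 4, 2, 5, 4, 6, 7]),
  ([8, 31, 8], [7])]

theorem gen_eq : ∃ T : Finset CoxeterMatrix.E₇.Group, T.card = 1 ∧
      (∀ t ∈ T, ∃ (g : CoxeterMatrix.E₇.Group) (i : Fin 7), t = g * CoxeterMatrix.E₇.simple i * g⁻¹) ∧
      Subgroup.closure (({((List.finRange 7).map CoxeterMatrix.E₇.simple).prod} : Set CoxeterMatrix.E₇.Group) ∪ ↑T) = ⊤ := by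
  obtain ⟨ψ, hψ, hst⟩ := pack.2
  exact cox_gen_one CoxeterMatrix.E₇ ψ (ntOf WE7o.ntl) 6 hψ hNT _ hst 1 [7, 6, 5, 4, 3, 2, 1] (by decide +kernel) steps
    (by decide +kernel) (by decide +kernel)

end Cfsg.Agent.Lib.Helper11.WE7M
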