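import Cfsg.Agent.Lib.Helper11.WF4o.Chain
import Cfsg.Agent.Lib.Helper11.WF4a.Upper
import Cfsg.Agent.Lib.Helper11.WF4c0.Upper
import Cfsg.Agent.Lib.Helper11.CoxW

/-!
# The Coxeter group `WF4`: order, Coxeter element, centre, generation
-/

set_option autoImplicit false
set_option maxRecDepth 100000

namespace Cfsg.Agent.Lib.Helper11.WF4M

open Cfsg.Agent.Lib.Helper11 Cfsg.Spor Cfsg.Agent.Lib.Helper11.WF4

theorem mono {S T : Set (FreeGroup Gen)} (h : S ⊆ T) :
    (Subgroup.closure S).map (PresentedGroup.mk (coxRelators edges ∪ {r | r ∈ extra})) ≤ (Subgroup.closure T).map (PresentedGroup.mk (coxRelators edges ∪ {r | r ∈ extra})) :=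
  Subgroup.map_mono (Subgroup.closure_mono h)

theorem card_le : Nat.card Cfsg.Agent.Lib.Helper11.WF4 ≠ 0 ∧ Nat.card Cfsg.Agent.Lib.Helper11.WF4 ≤ 1152 := by
  have h1 : Nat.card ((Subgroup.closure (∅ : Set (FreeGroup Gen))).map (PresentedGroup.mk (coxRelators edges ∪ {r | r ∈ extra}))) ≠ 0 ∧
      Nat.card ((Subgroup.closure (∅ : Set (FreeGroup Gen))).map (PresentedGroup.mk (coxRelators edges ∪ {r | r ∈ extra}))) ≤ 1 := by simp
  have h0 := card_le_step (mono (by simp)) _ _ WF4c0.upper h1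
  have h := card_le_top _ _ WF4a.upper h0
  exact h

/-- numbering of the generators -/
def toFin : Gen → Fin 4
  | .a => 0
  | .b => 1
  | .c => 2
  | .d => 3

/-- numbering of the generators -/
def ofFin : Fin 4 → Gen := ![.a, .b, .c, .d]

theorem pack : Nat.card CoxeterMatrix.F₄.Group = 1152 ∧ ∃ ψ' : CoxeterMatrix.F₄.Group →* Equiv.Perm ℕ,
      (∀ i, ψ' (CoxeterMatrix.F₄.simple i) = netPerm (ntOf WF4o.ntl ((i : ℕ) + 1))) ∧
      stabL ψ' (pushB WF4o.levels []) = ⊥ := by
  apply bridge_pack CoxeterMatrix.F₄ edges extra toFin ofFin _ _ _ _ _ WF4o.psi (ntOf WF4o.ntl) _ 1152 _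
    (WF4o.order card_le)
  · intro x; cases x <;> decide
  · intro x y; cases x <;> cases y <;> rfl
  · decide
  · intro x; cases x <;> rfl
  · intro r hr
    simp only [extra, List.mem_cons, List.mem_nil_iff, or_false] at hr
    subst hr
    rw [map_mul, FreeGroup.lift_apply_of]
    exact cm_simple_sq _ _
  · intro x
    have h : WF4o.psi (PresentedGroup.of x) = netPerm (ntOf WF4o.ntl (WF4a.code x)) :=
      PresentedGroup.toGroup.of WF4o.hrels
    rw [h]
    cases x <;> rfl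

theorem hNT : ∀ l, ∀ st ∈ ntOf WF4o.ntl l, stOK (2 ^ (2 ^ 5)) st = true :=
  ntOf_ok WF4o.ntl _ WF4o.netsOK

theorem card_eq : Nat.card CoxeterMatrix.F₄.Group = 1152 := pack.1

theorem order_eq : orderOf ((List.finRange 4).map CoxeterMatrix.F₄.simple).prod = 12 := by
  obtain ⟨ψ, hψ, hst⟩ := pack.2
  exact cox_order CoxeterMatrix.F₄ ψ (ntOf WF4o.ntl) 5 hψ hNT _ hst 12 0 (by norm_num)
    (by decide +kernel) (by decide +kernel)

theorem center_eq : Nat.card (Subgroup.center CoxeterMatrix.F₄.Group) = 2 ∧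
      Subgroup.center CoxeterMatrix.F₄.Group ≤ Subgroup.zpowers ((List.finRange 4).map CoxeterMatrix.F₄.simple).prod := by
  obtain ⟨ψ, hψ, hst⟩ := pack.2
  exact cox_center_two CoxeterMatrix.F₄ ψ (ntOf WF4o.ntl) 5 hψ hNT _ hst 24 6 (by norm_num) (by decide)
    (by decide +kernel) (by decide +kernel) [1, 2, 3] (by decide) (by decide +kernel) 23 (by decide +kernel)
    6 (by norm_num) order_eq (by decide +kernel) (by decide +kernel)

/-- the straight line program -/
def steps : List (List ℕ × List ℕ) := [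
  ([0, 2, 1], [2]),
  ([0, 3, 1], [4])]

theorem gen_eq : ∃ T : Finset CoxeterMatrix.F₄.Group, T.card = 2 ∧
      (∀ t ∈ T, ∃ (g : CoxeterMatrix.F₄.Group) (i : Fin 4), t = g * CoxeterMatrix.F₄.simple i * g⁻¹) ∧
      Subgroup.closure (({((List.finRange 4).map CoxeterMatrix.F₄.simple).prod} : Set CoxeterMatrix.F₄.Group) ∪ ↑T) = ⊤ := by
  obtain ⟨ψ, hψ, hst⟩ := pack.2
  exact cox_gen_two CoxeterMatrix.F₄ ψ (ntOf WF4o.ntl) 5 hψ hNT _ hst 0 2 2 (by decide +kernel) [4, 3, 2, 1]
    (by decide +kernel) steps (by decide +kernel) (by decide +kernel)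

end Cfsg.Agent.Lib.Helper11.WF4M
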