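import Cfsg.Agent.Lib.Helper11.WG2o.Chain
import Cfsg.Agent.Lib.Helper11.WG2a.Upper
import Cfsg.Agent.Lib.Helper11.WG2c0.Upper
import Cfsg.Agent.Lib.Helper11.CoxW

/-!
# The Coxeter group `WG2`: order, Coxeter element, centre, generation
-/

set_option autoImplicit false
set_option maxRecDepth 100000

namespace Cfsg.Agent.Lib.Helper11.WG2M

open Cfsg.Agent.Lib.Helper11 Cfsg.Spor Cfsg.Agent.Lib.Helper11.WG2

theorem mono {S T : Set (FreeGroup Gen)} (h : S ⊆ T) :
    (Subgroup.closure S).map (PresentedGroup.mk (coxRelators edges ∪ {r | r ∈ extra})) ≤ (Subgroup.closure T).map (PresentedGroup.mk (coxRelators edges ∪ {r | r ∈ extra})) :=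
  Subgroup.map_mono (Subgroup.closure_mono h)

theorem card_le : Nat.card Cfsg.Agent.Lib.Helper11.WG2 ≠ 0 ∧ Nat.card Cfsg.Agent.Lib.Helper11.WG2 ≤ 12 := by
  have h1 : Nat.card ((Subgroup.closure (∅ : Set (FreeGroup Gen))).map (PresentedGroup.mk (coxRelators edges ∪ {r | r ∈ extra}))) ≠ 0 ∧
      Nat.card ((Subgroup.closure (∅ : Set (FreeGroup Gen))).map (PresentedGroup.mk (coxRelators edges ∪ {r | r ∈ extra}))) ≤ 1 := by simp
  have h0 := card_le_step (mono (by simp)) _ _ WG2c0.upper h1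
  have h := card_le_top _ _ WG2a.upper h0
  exact h

/-- numbering of the generators -/
def toFin : Gen → Fin 2
  | .a => 0
  | .b => 1

/-- numbering of the generators -/
def ofFin : Fin 2 → Gen := ![.a, .b]

theorem pack : Nat.card CoxeterMatrix.G₂.Group = 12 ∧ ∃ ψ' : CoxeterMatrix.G₂.Group →* Equiv.Perm ℕ,
      (∀ i, ψ' (CoxeterMatrix.G₂.simple i) = netPerm (ntOf WG2o.ntl ((i : ℕ) + 1))) ∧
      stabL ψ' (pushB WG2o.levels []) = ⊥ := by
  apply bridge_pack CoxeterMatrix.G₂ edges extra toFin ofFin _ _ _ _ _ WG2o.psi (ntOf WG2o.ntl) _ 12 _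
    (WG2o.order card_le)
  · intro x; cases x <;> decide
  · intro x y; cases x <;> cases y <;> rfl
  · decide
  · intro x; cases x <;> rfl
  · intro r hr
    simp only [extra, List.mem_cons, List.mem_nil_iff, or_false] at hr
    subst hr
    rw [map_mul, FreeGroup.lift_apply_of]
    exact cm_simple_sq _ _
  · intro x
    have h : WG2o.psi (PresentedGroup.of x) = netPerm (ntOf WG2o.ntl (WG2a.code x)) :=
      PresentedGroup.toGroup.of WG2o.hrels
    rw [h]
    cases x <;> rfl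

theorem hNT : ∀ l, ∀ st ∈ ntOf WG2o.ntl l, stOK (2 ^ (2 ^ 3)) st = true :=
  ntOf_ok WG2o.ntl _ WG2o.netsOK

theorem card_eq : Nat.card CoxeterMatrix.G₂.Group = 12 := pack.1

theorem order_eq : orderOf ((List.finRange 2).map CoxeterMatrix.G₂.simple).prod = 6 := by
  obtain ⟨ψ, hψ, hst⟩ := pack.2
  exact cox_order CoxeterMatrix.G₂ ψ (ntOf WG2o.ntl) 3 hψ hNT _ hst 6 0 (by norm_num)
    (by decide +kernel) (by decide +kernel)

theorem center_eq : Nat.card (Subgroup.center CoxeterMatrix.G₂.Group) = 2 ∧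
      Subgroup.center CoxeterMatrix.G₂.Group ≤ Subgroup.zpowers ((List.finRange 2).map CoxeterMatrix.G₂.simple).prod := by
  obtain ⟨ψ, hψ, hst⟩ := pack.2
  exact cox_center_two CoxeterMatrix.G₂ ψ (ntOf WG2o.ntl) 3 hψ hNT _ hst 6 3 (by norm_num) (by decide)
    (by decide +kernel) (by decide +kernel) [1] (by decide) (by decide +kernel) 5 (by decide +kernel)
    3 (by norm_num) order_eq (by decide +kernel) (by decide +kernel)

/-- the straight line program -/
def steps : List (List ℕ × List ℕ) := [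
  ([2, 0], [2])]

theorem gen_eq : ∃ T : Finset CoxeterMatrix.G₂.Group, T.card = 1 ∧
      (∀ t ∈ T, ∃ (g : CoxeterMatrix.G₂.Group) (i : Fin 2), t = g * CoxeterMatrix.G₂.simple i * g⁻¹) ∧
      Subgroup.closure (({((List.finRange 2).map CoxeterMatrix.G₂.simple).prod} : Set CoxeterMatrix.G₂.Group) ∪ ↑T) = ⊤ := by
  obtain ⟨ψ, hψ, hst⟩ := pack.2
  exact cox_gen_one CoxeterMatrix.G₂ ψ (ntOf WG2o.ntl) 3 hψ hNT _ hst 0 [2, 1] (by decide +kernel) steps
    (by decide +kernel) (by decide +kernel)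

end Cfsg.Agent.Lib.Helper11.WG2M
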