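import Cfsg.Agent.Lib.Helper11.Y532o.Chain
import Cfsg.Agent.Lib.Helper11.Y532a.Upper
import Cfsg.Agent.Lib.Helper11.Y532c0.Upper
import Cfsg.Agent.Lib.Helper11.Y532c1.Upper
import Cfsg.Agent.Lib.Helper11.Y532c2.Upper
import Cfsg.Agent.Lib.Helper11.Y532c3.Upper
import Cfsg.Agent.Lib.Helper11.Y532c4.Upper
import Cfsg.Agent.Lib.Helper11.Y532c5.Upper
import Cfsg.Agent.Lib.Helper11.Y532c6.Upper

/-!
# The group `Y532` with the spider relation: the end node of the long arm is redundant
-/

set_option autoImplicit false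
set_option maxRecDepth 100000

namespace Cfsg.Agent.Lib.Helper11

/-- if the kernel of the model has order at most two and contains an odd element, then every even
element of the kernel is trivial -/
theorem eq_one_of_chain_two {G : Type*} [Group G] (ψ : G →* Equiv.Perm ℕ) (P2 : ℕ)
    (NT : ℕ → List (ℕ × ℕ)) (hNT : ∀ l, ∀ st ∈ NT l, stOK P2 st = true) (Lmax : ℕ)
    (hrange : ∀ l < Lmax, netPerm (NT l) ∈ ψ.range)
    (lv : List (List ℕ × ℕ × ℕ × ℕ × ℕ)) (h : chainChk NT Lmax lv [] = true) (N : ℕ)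
    (hN : (lv.map fun x => x.2.2.2.2).prod = N) (hup : Nat.card G ≠ 0 ∧ Nat.card G ≤ 2 * N)
    (σ : G →* ℤˣ) (ζ z : G) (hζ : ψ ζ = 1) (hζs : σ ζ = -1) (hz : ψ z = 1) (hzs : σ z = 1) :
    z = 1 := by
  classical
  haveI : Finite G := Nat.finite_of_card_ne_zero hup.1
  have h1 := chain_card ψ P2 NT hNT Lmax hrange lv [] h
  rw [hN, stabL_nil, Subgroup.card_top] at h1
  set S := stabL ψ (pushB lv []) with hS
  have hNpos : 0 < N := by
    rcases Nat.eq_zero_or_pos N with h0 | h0
    · subst h0; omega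
    · exact h0
  have hS2 : Nat.card S ≤ 2 := by
    have : N * Nat.card S ≤ N * 2 := by omega
    exact Nat.le_of_mul_le_mul_left this hNpos
  by_contra hne
  have hmem : ∀ x : G, ψ x = 1 → x ∈ S := by
    intro x hx b _
    rw [hx]; rfl
  have h12 : (1 : G) ≠ ζ := by
    intro e
    rw [← e, map_one] at hζs
    exact absurd hζs (by decide)
  have h23 : ζ ≠ z := by
    intro e
    rw [e, hzs] at hζs
    exact absurd hζs (by decide)
  have hc : ({1, ζ, z} : Finset G).card = 3 :=
    Finset.card_eq_three.2 ⟨1, ζ, z, h12, fun e => hne e.symm, h23, rfl⟩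
  have hsub : ((({1, ζ, z} : Finset G) : Set G)) ⊆ (S : Set G) := by
    intro x hx
    simp only [Finset.coe_insert, Finset.coe_singleton, Set.mem_insert_iff,
      Set.mem_singleton_iff] at hx
    rcases hx with rfl | rfl | rfl
    · exact S.one_mem
    · exact hmem _ hζ
    · exact hmem _ hz
  have h3 := Set.ncard_le_ncard hsub (Set.toFinite _)
  rw [Set.ncard_coe_finset, hc] at h3
  have h4 : (S : Set G).ncard = Nat.card S := rfl
  omega

namespace Y532M

open Cfsg.Agent.Lib.Helper11 Cfsg.Spor Cfsg.Agent.Lib.Helper11.Y532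

theorem mono {S T : Set (FreeGroup Gen)} (h : S ⊆ T) :
    (Subgroup.closure S).map (PresentedGroup.mk (coxRelators edges ∪ {r | r ∈ extra})) ≤ (Subgroup.closure T).map (PresentedGroup.mk (coxRelators edges ∪ {r | r ∈ extra})) :=
  Subgroup.map_mono (Subgroup.closure_mono h)

theorem card_le : Nat.card Cfsg.Agent.Lib.Helper11.Y532 ≠ 0 ∧
    Nat.card Cfsg.Agent.Lib.Helper11.Y532 ≤ 2 * 4089470473293004800 := by
  have h7 : Nat.card ((Subgroup.closure (∅ : Set (FreeGroup Gen))).map (PresentedGroup.mk (coxRelators edges ∪ {r | r ∈ extra}))) ≠ 0 ∧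
      Nat.card ((Subgroup.closure (∅ : Set (FreeGroup Gen))).map (PresentedGroup.mk (coxRelators edges ∪ {r | r ∈ extra}))) ≤ 1 := by simp
  have h6 := card_le_step (mono (by simp)) _ _ Y532c6.upper h7
  have h5 := card_le_step (mono (by intro x hx; simp only [Set.mem_insert_iff, Set.mem_singleton_iff] at hx ⊢; tauto)) _ _ Y532c5.upper h6
  have h4 := card_le_step (mono (by intro x hx; simp only [Set.mem_insert_iff, Set.mem_singleton_iff] at hx ⊢; tauto)) _ _ Y532c4.upper h5
  have h3 := card_le_step (mono (by intro x hx; simp only [Set.mem_insert_iff, Set.mem_singleton_iff] at hx ⊢; tauto)) _ _ Y532c3.upper h4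
  have h2 := card_le_step (mono (by intro x hx; simp only [Set.mem_insert_iff, Set.mem_singleton_iff] at hx ⊢; tauto)) _ _ Y532c2.upper h3
  have h1 := card_le_step (mono (by intro x hx; simp only [Set.mem_insert_iff, Set.mem_singleton_iff] at hx ⊢; tauto)) _ _ Y532c1.upper h2
  have h0 := card_le_step (mono (by intro x hx; simp only [Set.mem_insert_iff, Set.mem_singleton_iff] at hx ⊢; tauto)) _ _ Y532c0.upper h1
  have h := card_le_top _ _ Y532a.upper h0
  exact h

theorem sgn_rels : ∀ r ∈ coxRelators edges ∪ {r | r ∈ extra},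
    FreeGroup.lift (fun _ : Gen => (-1 : ℤˣ)) r = 1 := by
  apply lift_rels
  · intro x _ y _
    simp
  · intro r hr
    simp only [extra, List.mem_cons, List.mem_nil_iff, or_false] at hr
    rcases hr with rfl
    simp only [map_mul, map_inv, map_pow, FreeGroup.lift_apply_of]
    decide

/-- the sign -/
noncomputable def sgn : Cfsg.Agent.Lib.Helper11.Y532 →* ℤˣ := PresentedGroup.toGroup sgn_rels

theorem sgn_mk (w : FreeGroup Gen) :
    sgn (PresentedGroup.mk (coxRelators edges ∪ {r | r ∈ extra}) w) =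
      FreeGroup.lift (fun _ : Gen => (-1 : ℤˣ)) w := rfl

/-- the central element -/
def zetaE : WExp := .pow (.mul (.mul (.mul (.mul (.mul (.mul (.l 1) (.l 7)) (.l 8)) (.l 9)) (.l 2)) (.l 3)) (.l 10)) 9

/-- first relator -/
def z1E : WExp := .mul (.l 6) (.inv (.pow (.mul (.mul (.mul (.mul (.mul (.mul (.l 1) (.l 2)) (.l 7)) (.l 10)) (.l 3)) (.l 8)) (.l 4)) 9))

/-- second relator -/
def z2E : WExp := .mul (.l 6) (.inv (.pow (.mul (.mul (.mul (.mul (.mul (.mul (.l 1) (.l 2)) (.l 10)) (.l 7)) (.l 3)) (.l 11)) (.l 4)) 9))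

theorem zetaOK : wordId (ntOf Y532o.ntl) 15 (zetaE.letters Y532o.INVm) = true := by decide +kernel
theorem z1OK : wordId (ntOf Y532o.ntl) 15 (z1E.letters Y532o.INVm) = true := by decide +kernel
theorem z2OK : wordId (ntOf Y532o.ntl) 15 (z2E.letters Y532o.INVm) = true := by decide +kernel

theorem psi_one (e : WExp) (h : wordId (ntOf Y532o.ntl) 15 (e.letters Y532o.INVm) = true) :
    Y532o.psi (PresentedGroup.mk (coxRelators edges ∪ {r | r ∈ extra})
      (e.eval (fun l => Y532o.LTFm.getD l 1))) = 1 := by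
  rw [Y532o.psi_eval]
  exact wordId_spec _ 15 (ntOf_ok Y532o.ntl _ Y532o.netsOK) _ h

theorem zeta_eval : zetaE.eval (fun l => Y532o.LTFm.getD l 1) = (a * g * h * k * b * c * i) ^ 9 := rfl
theorem z1_eval : z1E.eval (fun l => Y532o.LTFm.getD l 1) =
    f * (((a * b * g * i * c * h * d) ^ 9)⁻¹) := rfl
theorem z2_eval : z2E.eval (fun l => Y532o.LTFm.getD l 1) =
    f * (((a * b * i * g * c * j * d) ^ 9)⁻¹) := rfl

theorem main (e : WExp) (h : wordId (ntOf Y532o.ntl) 15 (e.letters Y532o.INVm) = true)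
    (hs : FreeGroup.lift (fun _ : Gen => (-1 : ℤˣ)) (e.eval (fun l => Y532o.LTFm.getD l 1)) = 1) :
    PresentedGroup.mk (coxRelators edges ∪ {r | r ∈ extra})
      (e.eval (fun l => Y532o.LTFm.getD l 1)) = 1 := by
  refine eq_one_of_chain_two Y532o.psi _ (ntOf Y532o.ntl2) (ntOf_ok Y532o.ntl2 _ Y532o.nets2OK) 20
    Y532o.hrange Y532o.levels Y532o.chainOK 4089470473293004800 (by decide +kernel) card_le sgn
    (PresentedGroup.mk (coxRelators edges ∪ {r | r ∈ extra})
      (zetaE.eval (fun l => Y532o.LTFm.getD l 1))) _ (psi_one zetaE zetaOK) ?_ (psi_one e h) ?_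
  · rw [sgn_mk, zeta_eval]
    simp only [map_mul, map_pow, FreeGroup.lift_apply_of]
    decide
  · rw [sgn_mk]
    exact hs

theorem rel1 : PresentedGroup.mk (coxRelators edges ∪ {r | r ∈ extra})
    (f * (((a * b * g * i * c * h * d) ^ 9)⁻¹)) = 1 := by
  rw [← z1_eval]
  refine main z1E z1OK ?_
  rw [z1_eval]
  simp only [map_mul, map_inv, map_pow, FreeGroup.lift_apply_of]
  decide

theorem rel2 : PresentedGroup.mk (coxRelators edges ∪ {r | r ∈ extra})
    (f * (((a * b * i * g * c * j * d) ^ 9)⁻¹)) = 1 := by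
  rw [← z2_eval]
  refine main z2E z2OK ?_
  rw [z2_eval]
  simp only [map_mul, map_inv, map_pow, FreeGroup.lift_apply_of]
  decide

end Y532M

end Cfsg.Agent.Lib.Helper11
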