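import Cfsg.Agent.Lib.Helper11.Y532Main
import Cfsg.Prelude.Def_Spor_M

/-!
# Embedding the diagram `Y532` into `Y555`
-/

set_option autoImplicit false
set_option maxRecDepth 100000

namespace Cfsg.Agent.Lib.Helper11.Y555E

open Cfsg.Agent.Lib.Helper11 Cfsg.Spor

/-- the spider relator -/
abbrev sp : List (FreeGroup Bimonster.Gen) :=
  [(Bimonster.a * Bimonster.b1 * Bimonster.c1 * Bimonster.a * Bimonster.b2 * Bimonster.c2 *
    Bimonster.a * Bimonster.b3 * Bimonster.c3) ^ 10]

theorem pow_conj_eq_one {G : Type*} [Group G] (g x : G) (n : ℕ) (h : x ^ n = 1) :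
    (g⁻¹ * x * g) ^ n = 1 := by
  have h1 : g⁻¹ * x * g = g⁻¹ * x * (g⁻¹)⁻¹ := by rw [inv_inv]
  rw [h1, conj_pow, h]
  simp

theorem lift_eq_map (emb : Y532.Gen → Bimonster.Gen) (w : FreeGroup Y532.Gen) :
    FreeGroup.lift (fun x => (PresentedGroup.of (emb x) :
      CoxPresented Bimonster.Gen Bimonster.edges sp)) w =
    PresentedGroup.mk (coxRelators Bimonster.edges ∪ {r | r ∈ sp}) (FreeGroup.map emb w) := by
  have h : FreeGroup.lift (fun x => (PresentedGroup.of (emb x) :
      CoxPresented Bimonster.Gen Bimonster.edges sp)) =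
      (PresentedGroup.mk (coxRelators Bimonster.edges ∪ {r | r ∈ sp})).comp (FreeGroup.map emb) := by
    ext x
    simp [PresentedGroup.of]
  rw [h]
  rfl

theorem hom_of_emb (emb : Y532.Gen → Bimonster.Gen)
    (hl : ∀ x y, coxLabel Bimonster.edges (emb x) (emb y) = coxLabel Y532.edges x y)
    (hn : ∀ x, emb x ∈ coxNodes Bimonster.edges)
    (hsp : PresentedGroup.mk (coxRelators Bimonster.edges ∪ {r | r ∈ sp})
      (FreeGroup.map emb ((Y532.a * Y532.b * Y532.c * Y532.a * Y532.g * Y532.h * Y532.a * Y532.i *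
        Y532.j) ^ 10)) = 1)
    (w : FreeGroup Y532.Gen)
    (hw : PresentedGroup.mk (coxRelators Y532.edges ∪ {r | r ∈ Y532.extra}) w = 1) :
    PresentedGroup.mk (coxRelators Bimonster.edges ∪ {r | r ∈ sp}) (FreeGroup.map emb w) = 1 := by
  have hrels : ∀ r ∈ coxRelators Y532.edges ∪ {r | r ∈ Y532.extra},
      FreeGroup.lift (fun x => (PresentedGroup.of (emb x) :
        CoxPresented Bimonster.Gen Bimonster.edges sp)) r = 1 := by
    apply lift_rels
    · intro x _ y _
      rw [← hl]
      exact cox_rel Bimonster.edges sp (emb x) (emb y) (hn x) (hn y)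
    · intro r hr
      simp only [Y532.extra, List.mem_cons, List.mem_nil_iff, or_false] at hr
      subst hr
      rw [lift_eq_map]
      exact hsp
  have h1 : PresentedGroup.toGroup hrels
      (PresentedGroup.mk (coxRelators Y532.edges ∪ {r | r ∈ Y532.extra}) w) =
      FreeGroup.lift (fun x => (PresentedGroup.of (emb x) :
        CoxPresented Bimonster.Gen Bimonster.edges sp)) w := rfl
  rw [← lift_eq_map, ← h1, hw, map_one]

/-- arm 1 long -/
def emb0 : Y532.Gen → Bimonster.Gen
  | .a => .a | .b => .b1 | .c => .c1 | .d => .d1 | .e => .e1 | .f => .f1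
  | .g => .b2 | .h => .c2 | .k => .d2 | .i => .b3 | .j => .c3

/-- arm 2 long -/
def emb1 : Y532.Gen → Bimonster.Gen
  | .a => .a | .b => .b2 | .c => .c2 | .d => .d2 | .e => .e2 | .f => .f2
  | .g => .b3 | .h => .c3 | .k => .d3 | .i => .b1 | .j => .c1

/-- arm 3 long -/
def emb2 : Y532.Gen → Bimonster.Gen
  | .a => .a | .b => .b3 | .c => .c3 | .d => .d3 | .e => .e3 | .f => .f3
  | .g => .b1 | .h => .c1 | .k => .d1 | .i => .b2 | .j => .c2

theorem spider0 : PresentedGroup.mk (coxRelators Bimonster.edges ∪ {r | r ∈ sp})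
    ((Bimonster.a * Bimonster.b1 * Bimonster.c1 * Bimonster.a * Bimonster.b2 * Bimonster.c2 *
    Bimonster.a * Bimonster.b3 * Bimonster.c3) ^ 10) = 1 :=
  extra_rel Bimonster.edges sp _ (by simp)

theorem t0 (w : FreeGroup Y532.Gen)
    (hw : PresentedGroup.mk (coxRelators Y532.edges ∪ {r | r ∈ Y532.extra}) w = 1) :
    PresentedGroup.mk (coxRelators Bimonster.edges ∪ {r | r ∈ sp}) (FreeGroup.map emb0 w) = 1 := by
  apply hom_of_emb emb0 _ _ _ w hw
  · intro x y; cases x <;> cases y <;> rfl
  · intro x; cases x <;> decide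
  · have h := spider0
    simp only [map_mul, map_pow, FreeGroup.map.of] at h ⊢
    exact h

theorem t1 (w : FreeGroup Y532.Gen)
    (hw : PresentedGroup.mk (coxRelators Y532.edges ∪ {r | r ∈ Y532.extra}) w = 1) :
    PresentedGroup.mk (coxRelators Bimonster.edges ∪ {r | r ∈ sp}) (FreeGroup.map emb1 w) = 1 := by
  apply hom_of_emb emb1 _ _ _ w hw
  · intro x y; cases x <;> cases y <;> rfl
  · intro x; cases x <;> decide
  · have h := spider0
    simp only [map_mul, map_pow, FreeGroup.map.of] at h ⊢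
    have h2 := pow_conj_eq_one
      (PresentedGroup.mk (coxRelators Bimonster.edges ∪ {r | r ∈ sp}) Bimonster.a *
       PresentedGroup.mk (coxRelators Bimonster.edges ∪ {r | r ∈ sp}) Bimonster.b1 *
       PresentedGroup.mk (coxRelators Bimonster.edges ∪ {r | r ∈ sp}) Bimonster.c1) _ 10 h
    rw [← h2]
    congr 1
    show _ = _
    simp only [emb1]
    group

theorem t2 (w : FreeGroup Y532.Gen)
    (hw : PresentedGroup.mk (coxRelators Y532.edges ∪ {r | r ∈ Y532.extra}) w = 1) :
    PresentedGroup.mk (coxRelators Bimonster.edges ∪ {r | r ∈ sp}) (FreeGroup.map emb2 w) = 1 := by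
  apply hom_of_emb emb2 _ _ _ w hw
  · intro x y; cases x <;> cases y <;> rfl
  · intro x; cases x <;> decide
  · have h := spider0
    simp only [map_mul, map_pow, FreeGroup.map.of] at h ⊢
    have h2 := pow_conj_eq_one
      (PresentedGroup.mk (coxRelators Bimonster.edges ∪ {r | r ∈ sp}) Bimonster.a *
       PresentedGroup.mk (coxRelators Bimonster.edges ∪ {r | r ∈ sp}) Bimonster.b1 *
       PresentedGroup.mk (coxRelators Bimonster.edges ∪ {r | r ∈ sp}) Bimonster.c1 *
       PresentedGroup.mk (coxRelators Bimonster.edges ∪ {r | r ∈ sp}) Bimonster.a *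
       PresentedGroup.mk (coxRelators Bimonster.edges ∪ {r | r ∈ sp}) Bimonster.b2 *
       PresentedGroup.mk (coxRelators Bimonster.edges ∪ {r | r ∈ sp}) Bimonster.c2) _ 10 h
    rw [← h2]
    congr 1
    show _ = _
    simp only [emb2]
    group

end Cfsg.Agent.Lib.Helper11.Y555E
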